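import Mathlib
import Cfsg.Agent.Lib.Hilbert90

/-!
# Finite fields with an involutive automorphism: norm map
-/

set_option autoImplicit false
set_option linter.unusedSectionVars false

namespace Cfsg.Agent.Lib.PgoCent

open Cfsg.Agent.Lib.Hilbert90

section FF

variable {E : Type*} [Field E] [Fintype E]

/-- The norm of an involution, as a homomorphism of units. -/
def normH (θ : E ≃+* E) : Eˣ →* Eˣ where
  toFun a := a * Units.map (θ : E →* E) a
  map_one' := by simp
  map_mul' a b := by
    simp only [map_mul]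
    exact mul_mul_mul_comm a b _ _

lemma normH_val (θ : E ≃+* E) (a : Eˣ) : ((normH θ a : Eˣ) : E) = a * θ a := rfl

variable (θ : E ≃+* E) (hθ : ∀ x, θ (θ x) = x) (hne : ∃ x, θ x ≠ x)

include hθ hne

lemma orderOf_theta : orderOf θ = 2 := by
  have : Fact (Nat.Prime 2) := ⟨Nat.prime_two⟩
  apply orderOf_eq_prime
  · ext x
    simp [pow_two, hθ]
  · rintro rfl
    obtain ⟨x, hx⟩ := hne
    exact hx rfl

lemma card_fixed_sq : Nat.card E = Nat.card (fixedF θ) ^ 2 :=
  card_eq_card_fixedF_pow θ (orderOf_theta θ hθ hne)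

lemma ker_normH_eq : (normH θ).ker = (coB θ).range := by
  ext a
  rw [MonoidHom.mem_ker]
  constructor
  · intro h
    have h1 : (a : E) * θ a = 1 := by
      have := congrArg Units.val h
      simpa [normH_val] using this
    have h2 : pnorm θ (a : E) 2 = 1 := by
      rw [show (2 : ℕ) = 1 + 1 from rfl, pnorm_succ, pnorm_succ, pnorm_zero]
      simpa using h1
    obtain ⟨d, hd, hc⟩ := exists_of_pnorm_eq_one θ (by norm_num) (orderOf_theta θ hθ hne) h2
    refine ⟨Units.mk0 d hd, ?_⟩
    apply Units.ext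
    rw [coB_val]
    have hd2 : θ d ≠ 0 := by simpa using hd
    simp only [Units.val_mk0]
    field_simp
    rw [mul_comm]
    exact hc.symm
  · rintro ⟨d, rfl⟩
    apply Units.ext
    rw [normH_val, coB_val, map_div₀, hθ]
    have h1 : (d : E) ≠ 0 := d.ne_zero
    have h2 : θ (d : E) ≠ 0 := by simp
    simp only [Units.val_one]
    field_simp

lemma two_le_fixed : 2 ≤ Nat.card (fixedF θ) := by
  exact Finite.one_lt_card_iff_nontrivial.2 inferInstance

lemma card_ker_normH : Nat.card (normH θ).ker = Nat.card (fixedF θ) + 1 := by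
  have h1 := card_range_coB θ
  have h2 := card_fixed_sq θ hθ hne
  have h3 := two_le_fixed θ hθ hne
  rw [ker_normH_eq θ hθ hne]
  rw [h2] at h1
  set Q₀ := Nat.card (fixedF θ) with hQ₀
  obtain ⟨k, hk⟩ : ∃ k, Q₀ = k + 2 := ⟨Q₀ - 2, by omega⟩
  have h4 : Q₀ ^ 2 - 1 = (Q₀ + 1) * (Q₀ - 1) := by
    rw [hk]
    have : (k + 2) ^ 2 - 1 = (k + 2 + 1) * (k + 2 - 1) := by
      rw [show k + 2 - 1 = k + 1 by omega]
      have : (k + 2) ^ 2 = (k + 3) * (k + 1) + 1 := by ring
      rw [this]
      simp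
    exact this
  rw [h4] at h1
  exact Nat.eq_of_mul_eq_mul_right (by omega) h1

lemma card_units_eq : Nat.card Eˣ = (Nat.card (fixedF θ) + 1) * (Nat.card (fixedF θ) - 1) := by
  classical
  have h2 := card_fixed_sq θ hθ hne
  have h3 := two_le_fixed θ hθ hne
  rw [Nat.card_eq_fintype_card, Fintype.card_units, ← Nat.card_eq_fintype_card, h2]
  set Q₀ := Nat.card (fixedF θ) with hQ₀
  obtain ⟨k, hk⟩ : ∃ k, Q₀ = k + 2 := ⟨Q₀ - 2, by omega⟩
  rw [hk, show k + 2 - 1 = k + 1 by omega]
  have : (k + 2) ^ 2 = (k + 2 + 1) * (k + 1) + 1 := by ring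
  rw [this]
  simp

/-- The norm is onto the fixed field. -/
lemma normH_range_eq : (normH θ).range = (coB θ).ker := by
  classical
  have hle : (normH θ).range ≤ (coB θ).ker := by
    rintro _ ⟨a, rfl⟩
    rw [MonoidHom.mem_ker]
    apply Units.ext
    rw [coB_val, normH_val, map_mul, hθ, mul_comm (θ (a : E))]
    have h1 : (a : E) * θ a ≠ 0 := by
      apply mul_ne_zero a.ne_zero
      simp
    simp only [Units.val_one]
    field_simp
  have h3 := two_le_fixed θ hθ hne
  have hU := card_units_eq θ hθ hne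
  have hr : Nat.card (normH θ).range = Nat.card (fixedF θ) - 1 := by
    have h1 := Subgroup.card_mul_index (normH θ).ker
    rw [Subgroup.index_ker, card_ker_normH θ hθ hne, hU] at h1
    exact Nat.eq_of_mul_eq_mul_left (by omega) h1
  have hk : Nat.card (coB θ).ker = Nat.card (fixedF θ) - 1 := by
    have h1 := Subgroup.card_mul_index (coB θ).ker
    rw [Subgroup.index_ker, ← ker_normH_eq θ hθ hne, card_ker_normH θ hθ hne, hU, mul_comm] at h1
    exact Nat.eq_of_mul_eq_mul_left (by omega) h1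
  apply Subgroup.eq_of_le_of_card_ge hle
  rw [hr, hk]

/-- Every nonzero element of the fixed field is a norm. -/
lemma exists_norm {h : E} (hh : θ h = h) (h0 : h ≠ 0) : ∃ a : E, a * θ a = h := by
  have hm : Units.mk0 h h0 ∈ (coB θ).ker := by
    rw [MonoidHom.mem_ker]
    apply Units.ext
    rw [coB_val]
    simp only [Units.val_mk0, hh, Units.val_one]
    field_simp
  rw [← normH_range_eq θ hθ hne] at hm
  obtain ⟨a, ha⟩ := hm
  refine ⟨a, ?_⟩
  have := congrArg Units.val ha
  simpa [normH_val] using this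

open scoped Classical in
/-- The fibres of the norm have size `|E₀| + 1`. -/
lemma card_norm_fiber {h : E} (hh : θ h = h) (h0 : h ≠ 0) :
    (Finset.univ.filter fun a : E => a * θ a = h).card = Nat.card (fixedF θ) + 1 := by
  obtain ⟨a₀, ha₀⟩ := exists_norm θ hθ hne hh h0
  have ha₀0 : a₀ ≠ 0 := by
    rintro rfl
    apply h0
    rw [← ha₀]
    simp
  rw [← card_ker_normH θ hθ hne, Nat.card_eq_fintype_card, ← Finset.card_univ]
  symm
  refine Finset.card_bij (fun (k : (normH θ).ker) _ => a₀ * ((k : Eˣ) : E)) ?_ ?_ ?_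
  · intro k _
    rw [Finset.mem_filter]
    refine ⟨Finset.mem_univ _, ?_⟩
    have hk : ((k : Eˣ) : E) * θ ((k : Eˣ) : E) = 1 := by
      have := congrArg Units.val (MonoidHom.mem_ker.1 k.2)
      simpa [normH_val] using this
    rw [map_mul]
    calc a₀ * ((k : Eˣ) : E) * (θ a₀ * θ ((k : Eˣ) : E))
        = (a₀ * θ a₀) * (((k : Eˣ) : E) * θ ((k : Eˣ) : E)) := by ring
      _ = h := by rw [ha₀, hk, mul_one]
  · intro k₁ _ k₂ _ h12
    apply Subtype.ext
    apply Units.ext
    exact mul_left_cancel₀ ha₀0 h12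
  · intro a ha
    rw [Finset.mem_filter] at ha
    have ha2 := ha.2
    have ha0 : a ≠ 0 := by
      rintro rfl
      apply h0
      rw [← ha2]
      simp
    refine ⟨⟨Units.mk0 (a / a₀) (div_ne_zero ha0 ha₀0), ?_⟩, Finset.mem_univ _, ?_⟩
    · rw [MonoidHom.mem_ker]
      apply Units.ext
      rw [normH_val]
      simp only [Units.val_mk0, Units.val_one, map_div₀]
      have h1 : θ a₀ ≠ 0 := by simpa using ha₀0
      field_simp
      rw [ha2, ha₀]
    · simp only [Units.val_mk0]
      field_simp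

/-- A generator of the norm-one group. -/
lemma exists_gamma : ∃ γ : Eˣ, orderOf γ = Nat.card (fixedF θ) + 1 ∧ ((γ : E) * θ γ = 1) := by
  obtain ⟨γ, hγ⟩ := IsCyclic.exists_ofOrder_eq_natCard (α := (normH θ).ker)
  refine ⟨γ, ?_, ?_⟩
  · rw [Subgroup.orderOf_coe, hγ, card_ker_normH θ hθ hne]
  · have := congrArg Units.val (MonoidHom.mem_ker.1 γ.2)
    simpa [normH_val] using this

end FF

end Cfsg.Agent.Lib.PgoCent
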