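import Mathlib

/-!
# The splitting field of an irreducible endomorphism
-/

set_option autoImplicit false
set_option linter.unusedSectionVars false

namespace Cfsg.Agent.Lib.PgoCent

open Polynomial Module

variable {F : Type*} [Field F] {U : Type*} [AddCommGroup U] [Module F U] [FiniteDimensional F U]

/-- `T` has no proper invariant subspace. -/
def Irr (T : U →ₗ[F] U) : Prop := ∀ X : Submodule F U, (∀ x ∈ X, T x ∈ X) → X = ⊥ ∨ X = ⊤

lemma minpoly_irr [Nontrivial U] {T : Module.End F U} (hT : Irr (T : U →ₗ[F] U)) : Irreducible (minpoly F T) := by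
  have hint : IsIntegral F T := Algebra.IsIntegral.isIntegral T
  have hmon := minpoly.monic hint
  have haev : aeval T (minpoly F T) = 0 := minpoly.aeval F T
  have hnu : ¬ IsUnit (minpoly F T) := minpoly.not_isUnit F T
  refine ⟨hnu, ?_⟩
  intro a b hab
  have h0 : aeval T a * aeval T b = 0 := by
    rw [← map_mul, ← hab, haev]
  have hinv : ∀ x ∈ LinearMap.ker (aeval T a), T x ∈ LinearMap.ker (aeval T a) := by
    intro x hx
    rw [LinearMap.mem_ker] at hx ⊢
    have h1 : (aeval T a) * T = T * (aeval T a) := (Algebra.commute_of_mem_adjoin_self (Polynomial.aeval_mem_adjoin_singleton F T)).eq.symm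
    have h2 := LinearMap.congr_fun h1 x
    simp only [Module.End.mul_apply] at h2
    rw [h2, hx, map_zero]
  have hne : minpoly F T ≠ 0 := hmon.ne_zero
  have hane : a ≠ 0 := by
    rintro rfl
    simp at hab
    exact hne hab
  have hbne : b ≠ 0 := by
    rintro rfl
    simp at hab
    exact hne hab
  rcases hT _ hinv with h | h
  · -- `a(T)` is injective: `b(T) = 0`
    left
    have hb0 : aeval T b = 0 := by
      ext x
      have : aeval T a (aeval T b x) = 0 := by
        have := LinearMap.congr_fun h0 x
        simpa using this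
      have h3 : aeval T b x ∈ LinearMap.ker (aeval T a) := by
        rw [LinearMap.mem_ker]
        exact this
      rw [h, Submodule.mem_bot] at h3
      simpa using h3
    have hd := minpoly.dvd F T hb0
    obtain ⟨c, hc⟩ := hd
    have h4 : minpoly F T * (a * c - 1) = 0 := by
      rw [mul_sub, mul_one]
      nth_rewrite 2 [hab]
      rw [hc]
      ring
    have h5 : a * c = 1 := by
      have := (mul_eq_zero.1 h4).resolve_left hne
      exact sub_eq_zero.1 this
    exact isUnit_iff_exists_inv.2 ⟨c, h5⟩
  · right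
    have ha0 : aeval T a = 0 := by
      ext x
      have h3 : x ∈ LinearMap.ker (aeval T a) := by rw [h]; exact Submodule.mem_top
      rw [LinearMap.mem_ker] at h3
      simpa using h3
    have hd := minpoly.dvd F T ha0
    obtain ⟨c, hc⟩ := hd
    have h4 : minpoly F T * (b * c - 1) = 0 := by
      rw [mul_sub, mul_one]
      nth_rewrite 2 [hab]
      rw [hc]
      ring
    have h5 : b * c = 1 := by
      have := (mul_eq_zero.1 h4).resolve_left hne
      exact sub_eq_zero.1 this
    exact isUnit_iff_exists_inv.2 ⟨c, h5⟩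

section E

variable (T : Module.End F U) [hfact : Fact (Irreducible (minpoly F T))]

/-- The field generated by `T`. -/
abbrev EE : Type _ := AdjoinRoot (minpoly F T)

/-- The action of `EE T` on `U`. -/
noncomputable def rho : EE T →ₐ[F] Module.End F U :=
  Ideal.Quotient.liftₐ (Ideal.span {minpoly F T}) (aeval T) (by
    intro a ha
    obtain ⟨c, rfl⟩ := Ideal.mem_span_singleton.1 ha
    rw [map_mul, minpoly.aeval, zero_mul])

lemma rho_mk (p : F[X]) : rho T (AdjoinRoot.mk (minpoly F T) p) = aeval T p := rfl

lemma rho_root : rho T (AdjoinRoot.root (minpoly F T)) = T := by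
  rw [← AdjoinRoot.mk_X, rho_mk, aeval_X]

lemma rho_comm (c : EE T) (x : U) : rho T c (T x) = T (rho T c x) := by
  induction c using AdjoinRoot.induction_on with
  | ih p =>
    rw [rho_mk]
    have h : aeval T p * T = T * aeval T p :=
      (Algebra.commute_of_mem_adjoin_self (Polynomial.aeval_mem_adjoin_singleton F T)).eq.symm
    exact LinearMap.congr_fun h x

lemma rho_mul_apply (c d : EE T) (x : U) : rho T (c * d) x = rho T c (rho T d x) := by
  rw [map_mul]
  rfl

lemma rho_inj (c : EE T) (hc : c ≠ 0) {x : U} (h : rho T c x = 0) : x = 0 := by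
  have h1 : rho T (c⁻¹ * c) x = 0 := by
    rw [rho_mul_apply, h, map_zero]
  rw [inv_mul_cancel₀ hc, map_one] at h1
  exact h1

lemma rho_surj (c : EE T) (hc : c ≠ 0) (x : U) : ∃ y, rho T c y = x := by
  refine ⟨rho T c⁻¹ x, ?_⟩
  rw [← rho_mul_apply, mul_inv_cancel₀ hc, map_one]
  rfl

/-- Evaluation at a vector. -/
noncomputable def evalAt (e : U) : EE T →ₗ[F] U := (LinearMap.applyₗ e).comp (rho T).toLinearMap

lemma evalAt_apply (e : U) (c : EE T) : evalAt T e c = rho T c e := rfl

lemma evalAt_inj {e : U} (he : e ≠ 0) : Function.Injective (evalAt T e) := by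
  rw [injective_iff_map_eq_zero]
  intro c hc
  by_contra h
  exact he (rho_inj T c h hc)

lemma evalAt_surj (hT : Irr (T : U →ₗ[F] U)) {e : U} (he : e ≠ 0) : Function.Surjective (evalAt T e) := by
  have hinv : ∀ x ∈ LinearMap.range (evalAt T e), T x ∈ LinearMap.range (evalAt T e) := by
    rintro _ ⟨c, rfl⟩
    refine ⟨AdjoinRoot.root (minpoly F T) * c, ?_⟩
    rw [evalAt_apply, evalAt_apply, rho_mul_apply, rho_root]
  rcases hT _ hinv with h | h
  · exfalso
    have h1 : e ∈ LinearMap.range (evalAt T e) := ⟨1, by rw [evalAt_apply, map_one]; rfl⟩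
    rw [h, Submodule.mem_bot] at h1
    exact he h1
  · exact LinearMap.range_eq_top.1 h

/-- The linear equivalence between `EE T` and `U`. -/
noncomputable def evalEquiv (hT : Irr (T : U →ₗ[F] U)) {e : U} (he : e ≠ 0) : EE T ≃ₗ[F] U :=
  LinearEquiv.ofBijective (evalAt T e) ⟨evalAt_inj T he, evalAt_surj T hT he⟩

lemma evalEquiv_apply (hT : Irr (T : U →ₗ[F] U)) {e : U} (he : e ≠ 0) (c : EE T) :
    evalEquiv T hT he c = rho T c e := rfl

end E

end Cfsg.Agent.Lib.PgoCent
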