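import Mathlib
import Cfsg.Agent.Lib.OrthoBasic
import Cfsg.Agent.Lib.PgoCent.FF
import Cfsg.Agent.Lib.PgoCent.Irr

/-!
# Isometries acting irreducibly
-/

set_option autoImplicit false
set_option linter.unusedSectionVars false

namespace Cfsg.Agent.Lib.PgoCent

open Polynomial Module QuadraticMap Cfsg.Agent.Lib.OrthoBasic Cfsg.Agent.Lib.Hilbert90

variable {F : Type*} [Field F] {U : Type*} [AddCommGroup U] [Module F U]

/-- An isometry acting freely with an odd number of cycles on the nonzero level sets. -/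
structure FreeIso (Q : QuadraticForm F U) (T u : U →ₗ[F] U) (L A : ℕ) : Prop where
  iso : ∀ x, Q (u x) = Q x
  comm : ∀ x, u (T x) = T (u x)
  evenL : Even L
  posL : 0 < L
  oddA : Odd A
  free : ∀ x, x ≠ 0 → ∀ i : ℕ, ((u : Module.End F U) ^ i) x = x ↔ L ∣ i
  count : ∀ t : F, t ≠ 0 → Nat.card {x : U // Q x = t} = L * A

section adj

variable {Q : QuadraticForm F U} {T : Module.End F U} {r : ℕ}

lemma polar_T (hiso : ∀ x, Q (T x) = Q x) (x y : U) : polar Q (T x) (T y) = polar Q x y := by
  simp only [polar, ← map_add, hiso]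

lemma polar_T_left (hiso : ∀ x, Q (T x) = Q x) (hr : T ^ r = 1) (hr0 : 0 < r) (x y : U) :
    polar Q (T x) y = polar Q x ((T ^ (r - 1)) y) := by
  have h : T ((T ^ (r - 1)) y) = y := by
    have : T * T ^ (r - 1) = 1 := by rw [← pow_succ', Nat.sub_add_cancel hr0, hr]
    exact LinearMap.congr_fun this y
  conv_lhs => rw [← h]
  exact polar_T hiso _ _

lemma polar_pow (hiso : ∀ x, Q (T x) = Q x) (hr : T ^ r = 1) (hr0 : 0 < r) (n : ℕ) (x y : U) :
    polar Q ((T ^ n) x) y = polar Q x (((T ^ (r - 1)) ^ n) y) := by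
  induction n generalizing x with
  | zero => simp
  | succ n ih =>
    rw [pow_succ, Module.End.mul_apply, ih, pow_succ', Module.End.mul_apply, polar_T_left hiso hr hr0]

lemma polar_aeval (hiso : ∀ x, Q (T x) = Q x) (hr : T ^ r = 1) (hr0 : 0 < r) (p : F[X]) (x y : U) :
    polar Q (aeval T p x) y = polar Q x (aeval (T ^ (r - 1)) p y) := by
  induction p using Polynomial.induction_on' with
  | add p q hp hq =>
    rw [map_add, map_add, LinearMap.add_apply, LinearMap.add_apply, polar_add_left, polar_add_right, hp, hq]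
  | monomial n a =>
    rw [aeval_monomial, aeval_monomial, Module.End.mul_apply, Module.End.mul_apply, Module.algebraMap_end_apply,
      Module.algebraMap_end_apply, polar_smul_left, polar_smul_right, polar_pow hiso hr hr0]

end adj

variable [FiniteDimensional F U]

/-- The involution of the field. -/
lemma exists_theta {Q : QuadraticForm F U} (hQ : Nondeg Q) {T : Module.End F U} {r : ℕ}
    (hiso : ∀ x, Q (T x) = Q x) (hr : T ^ r = 1) (hr2 : 2 ≤ r) [Fact (Irreducible (minpoly F T))] :
    ∃ θ : EE T ≃ₐ[F] EE T, θ (AdjoinRoot.root (minpoly F T)) = (AdjoinRoot.root (minpoly F T)) ^ (r - 1) ∧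
      (∀ c x y, polar Q (rho T c x) y = polar Q x (rho T (θ c) y)) ∧ ∀ c, θ (θ c) = c := by
  have hr0 : 0 < r := by omega
  set ζ := AdjoinRoot.root (minpoly F T) with hζ
  have hrho : ∀ c : EE T, rho T c = 0 → c = 0 := by
    intro c hc
    by_contra h
    have h1 : rho T (c⁻¹ * c) = 0 := by rw [map_mul, hc, mul_zero]
    rw [inv_mul_cancel₀ h, map_one] at h1
    have : Nontrivial (Module.End F U) := by
      by_contra hn
      rw [not_nontrivial_iff_subsingleton] at hn
      have h2 : minpoly F T = 1 := by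
        have : aeval T (1 : F[X]) = 0 := Subsingleton.elim _ _
        have h3 := minpoly.dvd F T this
        exact (minpoly.monic (Algebra.IsIntegral.isIntegral T)).eq_one_of_isUnit (isUnit_of_dvd_one h3)
      have := (Fact.out : Irreducible (minpoly F T)).not_isUnit
      rw [h2] at this
      exact this isUnit_one
    exact one_ne_zero h1
  have hζr : ζ ^ r = 1 := by
    have h1 : rho T (ζ ^ r - 1) = 0 := by
      rw [map_sub, map_pow, hζ, rho_root, hr, map_one, sub_self]
    exact sub_eq_zero.1 (hrho _ h1)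
  have haev : aeval (ζ ^ (r - 1)) (minpoly F T) = 0 := by
    apply hrho
    rw [← Polynomial.aeval_algHom_apply, map_pow, hζ, rho_root]
    ext y
    by_contra h
    obtain ⟨x, hx⟩ := hQ _ h
    apply hx
    rw [polar_comm, ← polar_aeval hiso hr hr0, minpoly.aeval]
    simp
  let θ' : EE T →ₐ[F] EE T := AdjoinRoot.liftAlgHom (minpoly F T) (Algebra.ofId F _) (ζ ^ (r - 1)) (by
    rw [Polynomial.aeval_def] at haev
    exact haev)
  have hθ'ζ : θ' ζ = ζ ^ (r - 1) := AdjoinRoot.liftAlgHom_root _ _ _ _
  have hcomp : θ'.comp θ' = AlgHom.id F (EE T) := by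
    apply AdjoinRoot.algHom_ext
    simp only [AlgHom.coe_comp, Function.comp_apply, AlgHom.coe_id, id_eq]
    change θ' (θ' ζ) = ζ
    rw [hθ'ζ, map_pow, hθ'ζ, ← pow_mul]
    obtain ⟨k, hk⟩ : ∃ k, r = k + 2 := ⟨r - 2, by omega⟩
    have : (r - 1) * (r - 1) = r * k + 1 := by
      subst hk
      rw [show k + 2 - 1 = k + 1 by omega]
      ring
    rw [this, pow_succ, pow_mul, hζr, one_pow, one_mul]
  refine ⟨AlgEquiv.ofAlgHom θ' θ' hcomp hcomp, hθ'ζ, ?_, ?_⟩
  · intro c x y
    induction c using AdjoinRoot.induction_on with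
    | ih p =>
      rw [rho_mk, polar_aeval hiso hr hr0]
      congr 2
      have h1 : (AlgEquiv.ofAlgHom θ' θ' hcomp hcomp) ((AdjoinRoot.mk (minpoly F T)) p) = θ' ((AdjoinRoot.mk (minpoly F T)) p) := rfl
      rw [h1, ← AdjoinRoot.aeval_eq, ← Polynomial.aeval_algHom_apply, ← hζ, hθ'ζ,
        ← Polynomial.aeval_algHom_apply, map_pow, hζ, rho_root]
  · intro c
    exact AlgHom.congr_fun hcomp c

/-- Counting on the level sets of `ℓ ∘ N`. -/
lemma count_norm_level [Fintype F] {E : Type*} [Field E] [Fintype E] [Algebra F E] (θ : E ≃ₐ[F] E)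
    (hθ : ∀ x, θ (θ x) = x) (hne : ∃ x, θ x ≠ x) (ℓ : E →ₗ[F] F) (hℓ : ℓ 1 ≠ 0) :
    ∃ A : ℕ, A * Fintype.card F = Nat.card (fixedF (θ : E ≃+* E)) ∧
      ∀ t : F, t ≠ 0 → Nat.card {a : E // ℓ (a * θ a) = t} = (Nat.card (fixedF (θ : E ≃+* E)) + 1) * A := by
  classical
  set θr : E ≃+* E := (θ : E ≃+* E) with hθr
  have hθr' : ∀ x, θr (θ x) = x := hθ
  have hθr2 : ∀ x, θr (θr x) = x := hθ
  have hner : ∃ x, θr x ≠ x := hne
  haveI : Fintype (fixedF θr) := Fintype.ofFinite _
  let ℓ₀ : fixedF θr →+ F :=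
    { toFun := fun h => ℓ (h : E)
      map_zero' := by simp
      map_add' := fun a b => by simp }
  have hsurj : Function.Surjective ℓ₀ := by
    intro t
    have hm : algebraMap F E (t * (ℓ 1)⁻¹) ∈ fixedF θr := by
      change θ (algebraMap F E _) = _
      exact θ.commutes _
    refine ⟨⟨_, hm⟩, ?_⟩
    change ℓ (algebraMap F E (t * (ℓ 1)⁻¹)) = t
    rw [Algebra.algebraMap_eq_smul_one, map_smul, smul_eq_mul, mul_assoc, inv_mul_cancel₀ hℓ, mul_one]
  have hfib : ∀ t, (Finset.univ.filter fun h => ℓ₀ h = t).card = (Finset.univ.filter fun h => ℓ₀ h = 0).card := by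
    intro t
    exact AddMonoidHom.card_fiber_eq_of_mem_range ℓ₀ (hsurj t) (hsurj 0)
  set A := (Finset.univ.filter fun h => ℓ₀ h = 0).card with hA
  refine ⟨A, ?_, ?_⟩
  · have h1 := Finset.card_eq_sum_card_fiberwise (f := ℓ₀) (s := Finset.univ) (t := Finset.univ) (fun _ _ => Finset.mem_coe.2 (Finset.mem_univ _))
    rw [Finset.card_univ] at h1
    rw [Nat.card_eq_fintype_card, h1]
    rw [Finset.sum_congr rfl (fun t _ => hfib t), Finset.sum_const, Finset.card_univ, smul_eq_mul, mul_comm]
  · intro t ht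
    rw [Nat.card_eq_fintype_card, Fintype.card_subtype]
    have hN : ∀ a : E, a * θ a ∈ fixedF θr := by
      intro a
      change θ (a * θ a) = a * θ a
      rw [map_mul, hθ, mul_comm]
    let N₀ : E → fixedF θr := fun a => ⟨a * θ a, hN a⟩
    have h1 := Finset.card_eq_sum_card_fiberwise (f := N₀) (s := Finset.univ.filter fun a : E => ℓ (a * θ a) = t)
      (t := Finset.univ.filter fun h => ℓ₀ h = t) (by
        intro a ha
        simp only [Finset.coe_filter, Finset.mem_univ, true_and, Set.mem_setOf_eq] at ha ⊢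
        exact ha)
    rw [h1]
    have h2 : ∀ h ∈ Finset.univ.filter (fun h => ℓ₀ h = t),
        ((Finset.univ.filter fun a : E => ℓ (a * θ a) = t).filter fun a => N₀ a = h).card = Nat.card (fixedF θr) + 1 := by
      intro h hh
      rw [Finset.mem_filter] at hh
      have hh2 : ℓ (h : E) = t := hh.2
      have h0 : (h : E) ≠ 0 := by
        intro h0
        rw [h0, map_zero] at hh2
        exact ht hh2.symm
      rw [← card_norm_fiber θr hθr2 hner h.2 h0]
      congr 1
      ext a
      simp only [Finset.mem_filter, Finset.mem_univ, true_and, N₀, Subtype.ext_iff]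
      constructor
      · rintro ⟨_, h3⟩
        exact h3
      · intro h3
        have h4 : a * θr a = (h : E) := h3
        refine ⟨?_, h3⟩
        have h5 : a * θ a = (h : E) := h4
        rw [h5, hh2]
    rw [Finset.sum_congr rfl h2, Finset.sum_const, smul_eq_mul, hfib t, mul_comm]

/-- The main theorem on irreducible isometries. -/
theorem field_atom [Fintype F] (hodd : Odd (Fintype.card F)) (h2 : (2 : F) ≠ 0) {Q : QuadraticForm F U} (hQ : Nondeg Q)
    [Nontrivial U] {T : Module.End F U} {r : ℕ} (hrp : r.Prime) (hro : Odd r)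
    (hiso : ∀ x, Q (T x) = Q x) (hr : T ^ r = 1) (hfree : ∀ x, T x = x → x = 0) (hT : Irr (T : U →ₗ[F] U)) :
    (∀ ε : F, ε ≠ 0 → ∃ y : U →ₗ[F] U, (∀ x, Q (y x) = ε * Q x) ∧ ∀ x, y (T x) = T (y x)) ∧
    (∃ (u : U →ₗ[F] U) (L A : ℕ), FreeIso Q T u L A) ∧ Even (finrank F U) := by
  classical
  haveI : Fact (Irreducible (minpoly F T)) := ⟨minpoly_irr hT⟩
  obtain ⟨e0, he0⟩ := exists_ne (0 : U)
  haveI : Finite U := Module.finite_of_finite F
  haveI : Finite (EE T) := Finite.of_equiv _ (evalEquiv T hT he0).symm.toEquiv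
  letI : Fintype (EE T) := Fintype.ofFinite _
  have hr2 : 2 ≤ r := hrp.two_le
  obtain ⟨θ, hθζ, hadj, hθ⟩ := exists_theta hQ hiso hr hr2
  set θr : EE T ≃+* EE T := (θ : EE T ≃+* EE T) with hθrd
  have hθr2 : ∀ x, θr (θr x) = x := hθ
  have hT1 : T ≠ 1 := by
    rintro rfl
    exact he0 (hfree e0 rfl)
  have hne : ∃ x, θ x ≠ x := by
    refine ⟨AdjoinRoot.root (minpoly F T), ?_⟩
    intro h
    rw [hθζ] at h
    have h3 : T ^ (r - 1) = T := by
      have := congrArg (rho T) h
      rwa [map_pow, rho_root] at this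
    apply hT1
    have h4 : T ^ 2 = 1 := by
      have : T ^ r = T ^ (r - 1) * T := by rw [← pow_succ, Nat.sub_add_cancel (by omega)]
      rw [h3, hr, ← pow_two] at this
      exact this.symm
    obtain ⟨k, hk⟩ := hro
    rw [hk, pow_succ, pow_mul, h4, one_pow, one_mul] at hr
    exact hr
  have hner : ∃ x, θr x ≠ x := hne
  have hQrho : ∀ (a : EE T) (c : F), a * θ a = algebraMap F _ c → ∀ x, Q (rho T a x) = c * Q x := by
    intro a c hac x
    have h3 : polar Q (rho T a x) (rho T a x) = polar Q x (rho T (θ a) (rho T a x)) := hadj _ _ _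
    rw [← rho_mul_apply, mul_comm, hac, AlgHom.commutes] at h3
    rw [Module.algebraMap_end_apply, polar_smul_right, polar_self, polar_self] at h3
    simp only [nsmul_eq_mul, Nat.cast_ofNat] at h3
    apply mul_left_cancel₀ h2
    rw [h3]
    ring
  -- cardinalities
  have hcardE : Nat.card (EE T) = Fintype.card F ^ finrank F (EE T) := by
    rw [Nat.card_eq_fintype_card]
    exact Module.card_eq_pow_finrank
  have hsq := card_fixed_sq θr hθr2 hner
  set Q₀ := Nat.card (fixedF θr) with hQ₀
  have hQ₀odd : Odd Q₀ := by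
    have h3 : Odd (Nat.card (EE T)) := by
      rw [hcardE]
      exact hodd.pow
    rw [hsq] at h3
    exact (Nat.odd_pow_iff (by norm_num)).1 h3
  refine ⟨?_, ?_, ?_⟩
  · intro ε hε
    have hm : θr (algebraMap F (EE T) ε) = algebraMap F (EE T) ε := θ.commutes ε
    have hm0 : algebraMap F (EE T) ε ≠ 0 := by simpa using hε
    obtain ⟨a, ha⟩ := exists_norm θr hθr2 hner hm hm0
    exact ⟨rho T a, hQrho a ε ha, rho_comm T a⟩
  · obtain ⟨e, he⟩ : ∃ e, Q e ≠ 0 := by
      by_contra hall
      push Not at hall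
      obtain ⟨y, hy⟩ := hQ e0 he0
      apply hy
      simp [polar, hall]
    have he00 : e ≠ 0 := by
      rintro rfl
      simp at he
    let ℓ : EE T →ₗ[F] F :=
      { toFun := fun c => 2⁻¹ * polar Q e (rho T c e)
        map_add' := fun a b => by
          rw [map_add, LinearMap.add_apply, polar_add_right, mul_add]
        map_smul' := fun a b => by
          rw [map_smul, LinearMap.smul_apply, polar_smul_right, RingHom.id_apply, smul_eq_mul]
          ring }
    have hℓ : ∀ c, ℓ c = 2⁻¹ * polar Q e (rho T c e) := fun _ => rfl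
    have hℓ1 : ℓ 1 ≠ 0 := by
      rw [hℓ, map_one]
      have h3 : polar Q e ((1 : Module.End F U) e) = 2 * Q e := by
        rw [Module.End.one_apply, polar_self]
        simp
      rw [h3, ← mul_assoc, inv_mul_cancel₀ h2, one_mul]
      exact he
    obtain ⟨A, hAq, hcount⟩ := count_norm_level θ hθ hne ℓ hℓ1
    obtain ⟨γ, hγo, hγn⟩ := exists_gamma θr hθr2 hner
    refine ⟨rho T γ, Q₀ + 1, A, ?_⟩
    refine ⟨?_, rho_comm T _, hQ₀odd.add_one, by omega, ?_, ?_, ?_⟩
    · intro x
      have := hQrho γ 1 (by rw [map_one]; exact hγn) x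
      rwa [one_mul] at this
    · have h3 : Odd (A * Fintype.card F) := by
        rw [hAq]
        exact hQ₀odd
      exact (Nat.odd_mul.1 h3).1
    · intro x hx i
      have hpow : ((rho T (γ : EE T) : Module.End F U) ^ i) = rho T ((γ : EE T) ^ i) := (map_pow _ _ _).symm
      constructor
      · intro h3
        have hup : (γ ^ i : (EE T)ˣ) = 1 := by
          apply Units.ext
          rw [Units.val_pow_eq_pow_val, Units.val_one]
          by_contra hne1
          have h4 : rho T ((γ : EE T) ^ i - 1) x = 0 := by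
            rw [map_sub, LinearMap.sub_apply, map_one, ← hpow, h3, Module.End.one_apply, sub_self]
          exact hx (rho_inj T _ (sub_ne_zero.2 hne1) h4)
        rw [← hγo]
        exact orderOf_dvd_of_pow_eq_one hup
      · intro h3
        rw [← hγo] at h3
        have hup : γ ^ i = 1 := orderOf_dvd_iff_pow_eq_one.1 h3
        rw [hpow, ← Units.val_pow_eq_pow_val, hup, Units.val_one, map_one, Module.End.one_apply]
    · intro t ht
      rw [← hcount t ht]
      apply Nat.card_congr
      symm
      refine (evalEquiv T hT he00).toEquiv.subtypeEquiv ?_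
      intro a
      change ℓ (a * θ a) = t ↔ Q (rho T a e) = t
      have h3 : ℓ (a * θ a) = Q (rho T a e) := by
        rw [hℓ]
        have h4 : polar Q (rho T a e) (rho T a e) = polar Q e (rho T (θ a) (rho T a e)) := hadj _ _ _
        rw [← rho_mul_apply, polar_self, mul_comm (θ a)] at h4
        rw [← h4]
        simp only [nsmul_eq_mul, Nat.cast_ofNat]
        rw [← mul_assoc, inv_mul_cancel₀ h2, one_mul]
      rw [h3]
  · rw [← (evalEquiv T hT he0).finrank_eq]
    -- the fixed subspace
    let W₀ : Submodule F (EE T) :=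
      { carrier := {x | θ x = x}
        add_mem' := fun {a b} ha hb => by
          change θ (a + b) = a + b
          rw [map_add, show θ a = a from ha, show θ b = b from hb]
        zero_mem' := by
          change θ 0 = 0
          simp
        smul_mem' := fun c a ha => by
          change θ (c • a) = c • a
          rw [map_smul, show θ a = a from ha] }
    have h3 : Nat.card W₀ = Q₀ := by
      apply Nat.card_congr
      exact Equiv.subtypeEquivRight (fun x => Iff.rfl)
    haveI : Fintype W₀ := Fintype.ofFinite _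
    have h4 : Nat.card W₀ = Fintype.card F ^ finrank F W₀ := by
      rw [Nat.card_eq_fintype_card]
      exact Module.card_eq_pow_finrank
    have hq2 : 2 ≤ Fintype.card F := Fintype.one_lt_card
    have h5 : Fintype.card F ^ finrank F (EE T) = Fintype.card F ^ (2 * finrank F W₀) := by
      rw [← hcardE, hsq, ← h3, h4, pow_mul, pow_right_comm]
    have h6 : finrank F (EE T) = 2 * finrank F W₀ := Nat.pow_right_injective hq2 h5
    rw [h6]
    exact even_two_mul _

end Cfsg.Agent.Lib.PgoCent
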