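import Mathlib
import Cfsg.Agent.Lib.OrthoBasic
import Cfsg.Agent.Lib.PgoCent.FieldAtom

/-!
# Isometries acting on a sum of two totally isotropic subspaces
-/

set_option autoImplicit false
set_option linter.unusedSectionVars false
set_option linter.style.haveILetI false

namespace Cfsg.Agent.Lib.PgoCent

open Polynomial Module QuadraticMap Cfsg.Agent.Lib.OrthoBasic Cfsg.Agent.Lib.Hilbert90

variable {F : Type*} [Field F] {V : Type*} [AddCommGroup V] [Module F V]

/-- The output of the analysis of a minimal subspace. -/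
structure AtomOut (Q : QuadraticForm F V) (T : V →ₗ[F] V) : Prop where
  sim : ∀ ε : F, ε ≠ 0 → ∃ y : V →ₗ[F] V, (∀ x, Q (y x) = ε * Q x) ∧ ∀ x, y (T x) = T (y x)
  free : ∃ (u : V →ₗ[F] V) (L A : ℕ), FreeIso Q T u L A
  even : Even (finrank F V)

section dsum

variable {U U' : Submodule F V}

/-- The direct sum of two endomorphisms. -/
noncomputable def dsum (hc : IsCompl U U') (S : U →ₗ[F] U) (S' : U' →ₗ[F] U') : V →ₗ[F] V :=
  LinearMap.ofIsCompl hc (U.subtype ∘ₗ S) (U'.subtype ∘ₗ S')

lemma dsum_apply (hc : IsCompl U U') (S : U →ₗ[F] U) (S' : U' →ₗ[F] U') (a : U) (b : U') :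
    dsum hc S S' ((a : V) + b) = (S a : V) + (S' b : V) := by
  rw [map_add, dsum, LinearMap.ofIsCompl_apply_left, LinearMap.ofIsCompl_apply_right]
  rfl

lemma exists_split (hc : IsCompl U U') (x : V) : ∃ (a : U) (b : U'), x = (a : V) + b := by
  have hx : x ∈ U ⊔ U' := by
    rw [hc.sup_eq_top]
    exact Submodule.mem_top
  obtain ⟨a, ha, b, hb, h⟩ := Submodule.mem_sup.1 hx
  exact ⟨⟨a, ha⟩, ⟨b, hb⟩, h.symm⟩

lemma split_unique (hc : IsCompl U U') {a a' : U} {b b' : U'} (h : (a : V) + b = (a' : V) + b') :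
    a = a' ∧ b = b' := by
  have h1 : (a : V) - a' = (b' : V) - b := by
    rw [sub_eq_sub_iff_add_eq_add, h, add_comm]
  have h2 : (a : V) - a' ∈ U ⊓ U' := by
    refine ⟨sub_mem a.2 a'.2, ?_⟩
    rw [h1]
    exact sub_mem b'.2 b.2
  rw [hc.inf_eq_bot, Submodule.mem_bot] at h2
  have h3 : (a : V) = a' := sub_eq_zero.1 h2
  refine ⟨Subtype.ext h3, Subtype.ext ?_⟩
  rw [h3] at h
  exact add_left_cancel h

lemma split_eq_zero (hc : IsCompl U U') {a : U} {b : U'} (h : (a : V) + b = 0) : a = 0 ∧ b = 0 := by
  apply split_unique hc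
  simpa using h

lemma dsum_pow (hc : IsCompl U U') (S : U →ₗ[F] U) (S' : U' →ₗ[F] U') (i : ℕ) :
    ((dsum hc S S' : V →ₗ[F] V) : Module.End F V) ^ i =
      dsum hc ((S : Module.End F U) ^ i) ((S' : Module.End F U') ^ i) := by
  induction i with
  | zero =>
    ext x
    obtain ⟨a, b, rfl⟩ := exists_split hc x
    rw [pow_zero, pow_zero, pow_zero, dsum_apply]
    rfl
  | succ i ih =>
    ext x
    obtain ⟨a, b, rfl⟩ := exists_split hc x
    rw [pow_succ, Module.End.mul_apply, ih, dsum_apply, dsum_apply, pow_succ, pow_succ]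
    rw [dsum_apply]
    rfl

end dsum

section card

variable [Fintype F]

/-- The fibres of a nonzero linear functional. -/
lemma card_fiber_functional {M : Type*} [AddCommGroup M] [Module F M] [Finite M] (ℓ : M →ₗ[F] F) (hℓ : ℓ ≠ 0) (t : F) :
    Nat.card {b // ℓ b = t} * Fintype.card F = Nat.card M := by
  classical
  letI : Fintype M := Fintype.ofFinite _
  have hsurj : Function.Surjective ℓ := by
    obtain ⟨b, hb⟩ : ∃ b, ℓ b ≠ 0 := by
      by_contra h
      push Not at h
      exact hℓ (LinearMap.ext h)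
    intro t
    refine ⟨(t * (ℓ b)⁻¹) • b, ?_⟩
    rw [map_smul, smul_eq_mul, mul_assoc, inv_mul_cancel₀ hb, mul_one]
  have hfib : ∀ t, (Finset.univ.filter fun h => ℓ h = t).card = (Finset.univ.filter fun h => ℓ h = 0).card := by
    intro t
    exact AddMonoidHom.card_fiber_eq_of_mem_range ℓ.toAddMonoidHom (hsurj t) (hsurj 0)
  have h1 := Finset.card_eq_sum_card_fiberwise (f := ℓ) (s := Finset.univ) (t := Finset.univ) (fun _ _ => Finset.mem_coe.2 (Finset.mem_univ _))
  rw [Finset.card_univ, Finset.sum_congr rfl (fun t _ => hfib t), Finset.sum_const, Finset.card_univ, smul_eq_mul] at h1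
  rw [Nat.card_eq_fintype_card (α := M), h1, Nat.card_eq_fintype_card, Fintype.card_subtype, hfib t, mul_comm]

end card

section pairing

variable {Q : QuadraticForm F V} (hQ : Nondeg Q) {U U' : Submodule F V} (hc : IsCompl U U')
  (h0 : ∀ x ∈ U, ∀ y ∈ U, polar Q x y = 0) (h0' : ∀ x ∈ U', ∀ y ∈ U', polar Q x y = 0)

include hQ hc h0 h0'

lemma pair_nondeg_right {b : V} (hb : b ∈ U') (h : ∀ a ∈ U, polar Q a b = 0) : b = 0 := by
  by_contra hne
  obtain ⟨y, hy⟩ := hQ b hne
  apply hy
  obtain ⟨a, c, rfl⟩ := exists_split hc y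
  rw [polar_add_right, polar_comm, h a a.2, h0' _ hb _ c.2, zero_add]

lemma pair_nondeg_left {a : V} (ha : a ∈ U) (h : ∀ b ∈ U', polar Q a b = 0) : a = 0 := by
  by_contra hne
  obtain ⟨y, hy⟩ := hQ a hne
  apply hy
  obtain ⟨c, b, rfl⟩ := exists_split hc y
  rw [polar_add_right, h b b.2, h0 _ ha _ c.2, zero_add]

variable [FiniteDimensional F V]

/-- The pairing as a map to the dual. -/
noncomputable def psiP (Q : QuadraticForm F V) (U U' : Submodule F V) : U' →ₗ[F] Module.Dual F U :=
  (polarBilin Q).domRestrict₁₂ U' U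

omit hQ hc h0 h0' [FiniteDimensional F V] in
lemma psiP_apply (a : U) (b : U') : psiP Q U U' b a = polar Q (b : V) (a : V) := rfl

lemma psiP_inj : Function.Injective (psiP Q U U') := by
  rw [injective_iff_map_eq_zero]
  intro b hb
  apply Subtype.ext
  apply pair_nondeg_right hQ hc h0 h0' b.2
  intro a ha
  have := LinearMap.congr_fun hb ⟨a, ha⟩
  rw [psiP_apply] at this
  rw [polar_comm]
  exact this

lemma finrank_eq_of_pair : finrank F U = finrank F U' := by
  apply le_antisymm
  · have h1 := LinearMap.finrank_le_finrank_of_injective (psiP_inj hQ hc.symm h0' h0)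
    rwa [Subspace.dual_finrank_eq] at h1
  · have h1 := LinearMap.finrank_le_finrank_of_injective (psiP_inj hQ hc h0 h0')
    rwa [Subspace.dual_finrank_eq] at h1

lemma exists_adj (f : U →ₗ[F] U) : ∃ S' : U' →ₗ[F] U', ∀ (a : U) (b : U'),
    polar Q (f a : V) (b : V) = polar Q (a : V) (S' b : V) := by
  have hd : finrank F U' = finrank F (Module.Dual F U) := by
    rw [Subspace.dual_finrank_eq]
    exact (finrank_eq_of_pair hQ hc h0 h0').symm
  let ψ : U' ≃ₗ[F] Module.Dual F U := LinearEquiv.ofInjectiveOfFinrankEq _ (psiP_inj hQ hc h0 h0') hd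
  have hψ : ∀ b, ψ b = psiP Q U U' b := fun b => rfl
  refine ⟨ψ.symm.toLinearMap ∘ₗ f.dualMap ∘ₗ ψ.toLinearMap, ?_⟩
  intro a b
  set c := ψ.symm (f.dualMap (ψ b)) with hc'
  have h1 : ψ c = f.dualMap (ψ b) := by
    rw [hc', LinearEquiv.apply_symm_apply]
  have h2 := LinearMap.congr_fun h1 a
  rw [hψ, psiP_apply, LinearMap.dualMap_apply, hψ, psiP_apply] at h2
  change polar Q (f a : V) (b : V) = polar Q (a : V) (c : V)
  rw [polar_comm, polar_comm Q (a : V), ← h2]

end pairing

section main

variable [Fintype F] [FiniteDimensional F V] {Q : QuadraticForm F V} {U U' : Submodule F V}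

lemma Q_of_polar (h2 : (2 : F) ≠ 0) {a : V} (h : polar Q a a = 0) : Q a = 0 := by
  rw [polar_self] at h
  simp only [nsmul_eq_mul, Nat.cast_ofNat, mul_eq_zero] at h
  exact h.resolve_left h2

lemma Q_split (h2 : (2 : F) ≠ 0) (h0 : ∀ x ∈ U, ∀ y ∈ U, polar Q x y = 0) (h0' : ∀ x ∈ U', ∀ y ∈ U', polar Q x y = 0)
    (a : U) (b : U') : Q ((a : V) + b) = polar Q (a : V) (b : V) := by
  rw [Q_add, Q_of_polar h2 (h0 _ a.2 _ a.2), Q_of_polar h2 (h0' _ b.2 _ b.2), zero_add, zero_add]

/-- A permutation of the nonzero vectors of `U` with regular cycles gives the whole output. -/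
theorem split_abs (hodd : Odd (Fintype.card F)) (h2 : (2 : F) ≠ 0) (hQ : Nondeg Q)
    (hc : IsCompl U U') (h0 : ∀ x ∈ U, ∀ y ∈ U, polar Q x y = 0) (h0' : ∀ x ∈ U', ∀ y ∈ U', polar Q x y = 0)
    {T : V →ₗ[F] V} (hiso : ∀ x, Q (T x) = Q x) (hTU : ∀ x ∈ U, T x ∈ U) (hTU' : ∀ x ∈ U', T x ∈ U')
    (hne : U ≠ ⊥) (S f : U →ₗ[F] U) (hSf : ∀ a, S (f a) = a) (hfS : ∀ a, f (S a) = a)
    (hST : ∀ a, S (T.restrict hTU a) = T.restrict hTU (S a))
    (hS : ∀ a : U, a ≠ 0 → ∀ i : ℕ, ((S : Module.End F U) ^ i) a = a ↔ (Nat.card U - 1) ∣ i) :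
    AtomOut Q T := by
  classical
  haveI : Finite V := Module.finite_of_finite F
  set TU := T.restrict hTU with hTUd
  set TU' := T.restrict hTU' with hTU'd
  have hTUa : ∀ a : U, (TU a : V) = T a := fun a => rfl
  have hTU'a : ∀ a : U', (TU' a : V) = T a := fun a => rfl
  have hpT : ∀ x y, polar Q (T x) (T y) = polar Q x y := polar_T hiso
  have hTinj : Function.Injective T := by
    rw [injective_iff_map_eq_zero]
    intro x hx
    by_contra hne
    obtain ⟨y, hy⟩ := hQ x hne
    apply hy
    rw [← hpT, hx, polar_zero_left]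
  have hTUsurj : Function.Surjective TU := by
    rw [← LinearMap.injective_iff_surjective]
    intro a b hab
    apply Subtype.ext
    apply hTinj
    exact congrArg Subtype.val hab
  have hfT : ∀ a, f (TU a) = TU (f a) := by
    intro a
    rw [show TU a = S (TU (f a)) by rw [hST, hSf], hfS]
  obtain ⟨S', hS'⟩ := exists_adj hQ hc h0 h0' f
  have hS'T : ∀ b, S' (TU' b) = TU' (S' b) := by
    intro b
    apply Subtype.ext
    rw [← sub_eq_zero]
    apply pair_nondeg_right hQ hc h0 h0' (sub_mem (S' (TU' b)).2 (TU' (S' b)).2)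
    intro a ha
    obtain ⟨a₀, ha₀⟩ := hTUsurj ⟨a, ha⟩
    have h3 : a = T a₀ := congrArg Subtype.val ha₀.symm
    have h4 : polar Q a (S' (TU' b) : V) = polar Q (a₀ : V) (S' b : V) := by
      have h6 := hS' ⟨a, ha⟩ (TU' b)
      change polar Q ((f ⟨a, ha⟩ : U) : V) _ = polar Q a _ at h6
      rw [← h6, ← ha₀, hfT, hTUa, hTU'a, hpT, hS']
    have h5 : polar Q a (TU' (S' b) : V) = polar Q (a₀ : V) (S' b : V) := by
      rw [hTU'a, h3, hpT]
    rw [polar_sub_right, h4, h5, sub_self]
  set u := dsum hc S S' with hu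
  have huab : ∀ (a : U) (b : U'), u ((a : V) + b) = (S a : V) + (S' b : V) := dsum_apply hc S S'
  have hSpow : ∀ (i : ℕ) (a : U), ((S : Module.End F U) ^ i) (((f : Module.End F U) ^ i) a) = a := by
    intro i
    induction i with
    | zero => intro a; rfl
    | succ i ih =>
      intro a
      rw [pow_succ, pow_succ', Module.End.mul_apply, Module.End.mul_apply, hSf, ih]
  have hadj : ∀ (i : ℕ) (a : U) (b : U'), polar Q (((f : Module.End F U) ^ i) a : V) (b : V)
      = polar Q (a : V) (((S' : Module.End F U') ^ i) b : V) := by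
    intro i
    induction i with
    | zero => intro a b; rfl
    | succ i ih =>
      intro a b
      rw [pow_succ, pow_succ', Module.End.mul_apply, Module.End.mul_apply, ih, hS']
  haveI : Nontrivial U := Submodule.nontrivial_iff_ne_bot.2 hne
  have hUnt : Nontrivial U := inferInstance
  have hcardU : Nat.card U = Fintype.card F ^ finrank F U := by
    letI : Fintype U := Fintype.ofFinite _
    rw [Nat.card_eq_fintype_card]
    exact Module.card_eq_pow_finrank
  have hcardU' : Nat.card U' = Fintype.card F ^ finrank F U' := by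
    letI : Fintype U' := Fintype.ofFinite _
    rw [Nat.card_eq_fintype_card]
    exact Module.card_eq_pow_finrank
  have hdim := finrank_eq_of_pair hQ hc h0 h0'
  have hdpos : 0 < finrank F U := Module.finrank_pos
  refine ⟨?_, ?_, ?_⟩
  · intro ε hε
    refine ⟨dsum hc LinearMap.id (ε • LinearMap.id), ?_, ?_⟩
    · intro x
      obtain ⟨a, b, rfl⟩ := exists_split hc x
      rw [dsum_apply]
      have h3 := Q_split (Q := Q) h2 h0 h0' ((LinearMap.id : U →ₗ[F] U) a) ((ε • LinearMap.id : U' →ₗ[F] U') b)
      rw [h3, Q_split h2 h0 h0']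
      simp only [LinearMap.id_coe, id_eq, LinearMap.smul_apply, Submodule.coe_smul, polar_smul_r]
    · intro x
      obtain ⟨a, b, rfl⟩ := exists_split hc x
      rw [map_add, ← hTUa, ← hTU'a, dsum_apply, dsum_apply, map_add]
      simp only [LinearMap.id_coe, id_eq, LinearMap.smul_apply, Submodule.coe_smul, map_smul, hTUa, hTU'a]
  · refine ⟨u, Nat.card U - 1, Fintype.card F ^ (finrank F U' - 1), ?_⟩
    refine ⟨?_, ?_, ?_, ?_, hodd.pow, ?_, ?_⟩
    · intro x
      obtain ⟨a, b, rfl⟩ := exists_split hc x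
      rw [huab, Q_split h2 h0 h0', Q_split h2 h0 h0', ← hS', hfS]
    · intro x
      obtain ⟨a, b, rfl⟩ := exists_split hc x
      rw [map_add, ← hTUa, ← hTU'a, huab, huab, hST, hS'T, map_add, hTUa, hTU'a]
    · have h3 : Odd (Nat.card U) := by
        rw [hcardU]
        exact hodd.pow
      obtain ⟨k, hk⟩ := h3
      exact ⟨k, by omega⟩
    · have h3 : 1 < Nat.card U := Finite.one_lt_card
      omega
    · intro x hx i
      obtain ⟨a, b, rfl⟩ := exists_split hc x
      rw [hu, dsum_pow, dsum_apply]
      constructor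
      · intro h3
        obtain ⟨h4, h5⟩ := split_unique hc (a := ((S : Module.End F U) ^ i) a) (b := ((S' : Module.End F U') ^ i) b) h3
        by_cases ha : a = 0
        · have hb : b ≠ 0 := by
            rintro rfl
            apply hx
            rw [ha]
            simp
          by_contra hL
          have hinj : Function.Injective (((f : Module.End F U) ^ i) - 1 : Module.End F U) := by
            rw [injective_iff_map_eq_zero]
            intro c hc0
            by_contra hc1
            apply hL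
            rw [← hS c hc1]
            have h6 : ((f : Module.End F U) ^ i) c = c := by
              rw [LinearMap.sub_apply, sub_eq_zero] at hc0
              exact hc0
            conv_lhs => rw [← h6]
            exact hSpow i c
          have hsurj := LinearMap.injective_iff_surjective.1 hinj
          apply hb
          apply Subtype.ext
          apply pair_nondeg_right hQ hc h0 h0' b.2
          intro c hc1
          obtain ⟨d, hd⟩ := hsurj ⟨c, hc1⟩
          have h7 : polar Q (((((f : Module.End F U) ^ i) - 1 : Module.End F U) d : U) : V) (b : V) = 0 := by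
            rw [LinearMap.sub_apply, Submodule.coe_sub, polar_sub_left, hadj, h5]
            simp
          rw [hd] at h7
          exact h7
        · exact (hS a ha i).1 h4
      · intro h3
        have hSi : ∀ c : U, ((S : Module.End F U) ^ i) c = c := by
          intro c
          by_cases hc0 : c = 0
          · rw [hc0, map_zero]
          · exact (hS c hc0 i).2 h3
        have hfi : ∀ c : U, ((f : Module.End F U) ^ i) c = c := by
          intro c
          have := hSpow i c
          rwa [hSi] at this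
        rw [hSi]
        congr 1
        have : ((S' : Module.End F U') ^ i) b = b := by
          apply Subtype.ext
          rw [← sub_eq_zero]
          apply pair_nondeg_right hQ hc h0 h0' (sub_mem (((S' : Module.End F U') ^ i) b).2 b.2)
          intro c hc1
          rw [polar_sub_right, ← hadj i ⟨c, hc1⟩, hfi, sub_self]
        rw [this]
    · intro t ht
      let e := Submodule.prodEquivOfIsCompl U U' hc
      have he : ∀ p, e p = (p.1 : V) + p.2 := fun p => Submodule.coe_prodEquivOfIsCompl' U U' hc p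
      have h3 : Nat.card {x : V // Q x = t} = Nat.card {p : U × U' // polar Q (p.1 : V) (p.2 : V) = t} := by
        apply Nat.card_congr
        refine (Equiv.subtypeEquiv e.toEquiv ?_).symm
        intro p
        change _ ↔ Q (e p) = t
        rw [he, Q_split h2 h0 h0']
      rw [h3]
      letI : Fintype U := Fintype.ofFinite _
      letI : Fintype U' := Fintype.ofFinite _
      have h4 : Nat.card {p : U × U' // polar Q (p.1 : V) (p.2 : V) = t}
          = ∑ a : U, Nat.card {b : U' // polar Q (a : V) (b : V) = t} := by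
        rw [← Nat.card_sigma]
        apply Nat.card_congr
        exact Equiv.subtypeProdEquivSigmaSubtype (fun (a : U) (b : U') => polar Q (a : V) (b : V) = t)
      rw [h4, ← Finset.add_sum_erase _ _ (Finset.mem_univ (0 : U))]
      have h5 : Nat.card {b : U' // polar Q ((0 : U) : V) (b : V) = t} = 0 := by
        haveI : IsEmpty {b : U' // polar Q ((0 : U) : V) (b : V) = t} := by
          constructor
          rintro ⟨b, hb⟩
          rw [Submodule.coe_zero, polar_zero_left] at hb
          exact ht hb.symm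
        exact Nat.card_of_isEmpty
      rw [h5, zero_add]
      have h6 : ∀ a ∈ Finset.univ.erase (0 : U), Nat.card {b : U' // polar Q (a : V) (b : V) = t} = Fintype.card F ^ (finrank F U' - 1) := by
        intro a ha
        have ha0 : a ≠ 0 := (Finset.mem_erase.1 ha).1
        let ℓ : U' →ₗ[F] F := ((polarBilin Q) (a : V)).domRestrict U'
        have hℓ : ℓ ≠ 0 := by
          intro h7
          apply ha0
          apply Subtype.ext
          apply pair_nondeg_left hQ hc h0 h0' a.2
          intro b hb
          exact LinearMap.congr_fun h7 ⟨b, hb⟩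
        have h8 := card_fiber_functional ℓ hℓ t
        have h9 : Nat.card {b // ℓ b = t} = Nat.card {b : U' // polar Q (a : V) (b : V) = t} := rfl
        rw [← h9]
        have hd' : finrank F U' = finrank F U' - 1 + 1 := by omega
        rw [hcardU'] at h8
        conv_rhs at h8 => rw [hd', pow_succ]
        exact Nat.eq_of_mul_eq_mul_right Fintype.card_pos h8
      rw [Finset.sum_congr rfl h6, Finset.sum_const, Finset.card_erase_of_mem (Finset.mem_univ _), Finset.card_univ,
        smul_eq_mul, Nat.card_eq_fintype_card]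
  · rw [← Submodule.finrank_add_eq_of_isCompl hc, ← hdim]
    exact ⟨_, rfl⟩

/-- The split case. -/
theorem split_atom (hodd : Odd (Fintype.card F)) (h2 : (2 : F) ≠ 0) (hQ : Nondeg Q)
    (hc : IsCompl U U') (h0 : ∀ x ∈ U, ∀ y ∈ U, polar Q x y = 0) (h0' : ∀ x ∈ U', ∀ y ∈ U', polar Q x y = 0)
    {T : V →ₗ[F] V} (hiso : ∀ x, Q (T x) = Q x) (hTU : ∀ x ∈ U, T x ∈ U) (hTU' : ∀ x ∈ U', T x ∈ U')
    (hne : U ≠ ⊥) (hirr : Irr (T.restrict hTU)) : AtomOut Q T := by
  classical
  haveI : Nontrivial U := Submodule.nontrivial_iff_ne_bot.2 hne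
  haveI : Finite V := Module.finite_of_finite F
  set TU : Module.End F U := T.restrict hTU with hTUd
  haveI : Fact (Irreducible (minpoly F TU)) := ⟨minpoly_irr hirr⟩
  obtain ⟨e0, he0⟩ := exists_ne (0 : U)
  haveI : Finite (EE TU) := Finite.of_equiv _ (evalEquiv TU hirr he0).symm.toEquiv
  letI : Fintype (EE TU) := Fintype.ofFinite _
  obtain ⟨s, hs⟩ := IsCyclic.exists_ofOrder_eq_natCard (α := (EE TU)ˣ)
  have hcard : Nat.card (EE TU)ˣ = Nat.card U - 1 := by
    rw [Nat.card_eq_fintype_card, Fintype.card_units, ← Nat.card_eq_fintype_card]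
    rw [Nat.card_congr (evalEquiv TU hirr he0).toEquiv]
  refine split_abs hodd h2 hQ hc h0 h0' hiso hTU hTU' hne (rho TU (s : EE TU)) (rho TU ((s⁻¹ : (EE TU)ˣ) : EE TU)) ?_ ?_ ?_ ?_
  · intro a
    rw [← rho_mul_apply, Units.mul_inv, map_one]
    rfl
  · intro a
    rw [← rho_mul_apply, Units.inv_mul, map_one]
    rfl
  · intro a
    exact rho_comm TU _ a
  · intro a ha i
    rw [← hcard, ← hs]
    have hpow : ((rho TU (s : EE TU) : Module.End F U) ^ i) = rho TU ((s : EE TU) ^ i) := (map_pow _ _ _).symm
    constructor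
    · intro h3
      have hup : (s ^ i : (EE TU)ˣ) = 1 := by
        apply Units.ext
        rw [Units.val_pow_eq_pow_val, Units.val_one]
        by_contra hne1
        have h4 : rho TU ((s : EE TU) ^ i - 1) a = 0 := by
          rw [map_sub, LinearMap.sub_apply, map_one, ← hpow, h3, Module.End.one_apply, sub_self]
        exact ha (rho_inj TU _ (sub_ne_zero.2 hne1) h4)
      exact orderOf_dvd_of_pow_eq_one hup
    · intro h3
      have hup : s ^ i = 1 := orderOf_dvd_iff_pow_eq_one.1 h3
      rw [hpow, ← Units.val_pow_eq_pow_val, hup, Units.val_one, map_one, Module.End.one_apply]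

end main

end Cfsg.Agent.Lib.PgoCent
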