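import Mathlib
import Cfsg.Agent.Lib.OrthoBasic
import Cfsg.Agent.Lib.PgoCent.Split

/-!
# Minimal invariant non-degenerate subspaces
-/

set_option autoImplicit false
set_option linter.unusedSectionVars false
set_option linter.style.haveILetI false

namespace Cfsg.Agent.Lib.PgoCent

open Polynomial Module QuadraticMap Cfsg.Agent.Lib.OrthoBasic

variable {F : Type*} [Field F] {V : Type*} [AddCommGroup V] [Module F V]

section perp

/-- The orthogonal complement with respect to the polar form. -/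
def perp (Q : QuadraticForm F V) (W : Submodule F V) : Submodule F V where
  carrier := {v | ∀ w ∈ W, polar Q v w = 0}
  add_mem' := fun {a b} ha hb w hw => by rw [polar_add_left, ha w hw, hb w hw, add_zero]
  zero_mem' := fun w _ => polar_zero_left _ w
  smul_mem' := fun c a ha w hw => by rw [polar_smul_l, ha w hw, mul_zero]

lemma mem_perp {Q : QuadraticForm F V} {W : Submodule F V} {v : V} : v ∈ perp Q W ↔ ∀ w ∈ W, polar Q v w = 0 := Iff.rfl

/-- Non-degeneracy of the restriction. -/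
def NondegOn (Q : QuadraticForm F V) (W : Submodule F V) : Prop := ∀ x ∈ W, x ≠ 0 → ∃ y ∈ W, polar Q x y ≠ 0

variable {Q : QuadraticForm F V} {W : Submodule F V}

lemma eq_bot_of_map_subtype {U : Submodule F V} {Y : Submodule F U} (h : Y.map U.subtype = ⊥) : Y = ⊥ := by
  rw [Submodule.eq_bot_iff]
  intro y hy
  have h1 : (y : V) ∈ Y.map U.subtype := ⟨y, hy, rfl⟩
  rw [h, Submodule.mem_bot] at h1
  exact Subtype.ext h1

lemma polar_comp (a b : W) : polar (Q.comp W.subtype) a b = polar Q (a : V) (b : V) := rfl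

lemma nondeg_comp (h : NondegOn Q W) : Nondeg (Q.comp W.subtype) := by
  intro x hx
  obtain ⟨y, hy, hxy⟩ := h x x.2 (by simpa using hx)
  exact ⟨⟨y, hy⟩, hxy⟩

lemma nondegOn_top (hQ : Nondeg Q) : NondegOn Q (⊤ : Submodule F V) := by
  intro x _ hx
  obtain ⟨y, hy⟩ := hQ x hx
  exact ⟨y, Submodule.mem_top, hy⟩

lemma isCompl_perp [FiniteDimensional F V] (h : NondegOn Q W) : IsCompl W (perp Q W) := by
  constructor
  · rw [Submodule.disjoint_def]
    intro x hx hx'
    by_contra hne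
    obtain ⟨y, hy, hxy⟩ := h x hx hne
    exact hxy (hx' y hy)
  · rw [codisjoint_iff_le_sup]
    intro v _
    let φ : W →ₗ[F] Module.Dual F W := (polarBilin Q).domRestrict₁₂ W W
    have hφ : ∀ a b : W, φ a b = polar Q (a : V) (b : V) := fun _ _ => rfl
    have hinj : Function.Injective φ := by
      rw [injective_iff_map_eq_zero]
      intro a ha
      by_contra hne
      obtain ⟨y, hy, hxy⟩ := h a a.2 (by simpa using hne)
      apply hxy
      have := LinearMap.congr_fun ha ⟨y, hy⟩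
      rw [hφ] at this
      exact this
    have hsurj : Function.Surjective φ :=
      (LinearMap.injective_iff_surjective_of_finrank_eq_finrank (Subspace.dual_finrank_eq).symm).1 hinj
    obtain ⟨a, ha⟩ := hsurj (((polarBilin Q) v).domRestrict W)
    rw [Submodule.mem_sup]
    refine ⟨a, a.2, v - a, ?_, by abel⟩
    intro w hw
    rw [polar_sub_left]
    have h3 := LinearMap.congr_fun ha ⟨w, hw⟩
    rw [hφ] at h3
    rw [h3]
    have h4 : ((polarBilin Q) v).domRestrict W ⟨w, hw⟩ = polar Q v w := rfl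
    rw [h4, sub_self]

lemma nondegOn_perp [FiniteDimensional F V] (hQ : Nondeg Q) (h : NondegOn Q W) : NondegOn Q (perp Q W) := by
  intro z hz hz0
  obtain ⟨y, hy⟩ := hQ z hz0
  obtain ⟨a, b, rfl⟩ := exists_split (isCompl_perp h) y
  refine ⟨b, b.2, ?_⟩
  rwa [polar_add_right, hz _ a.2, zero_add] at hy

end perp

section inv

variable {Q : QuadraticForm F V} {T : Module.End F V} {r : ℕ}

lemma pow_mem_inv {W : Submodule F V} (hW : ∀ x ∈ W, T x ∈ W) (k : ℕ) {x : V} (hx : x ∈ W) : (T ^ k) x ∈ W := by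
  induction k with
  | zero => exact hx
  | succ k ih =>
    rw [pow_succ', Module.End.mul_apply]
    exact hW _ ih

lemma perp_inv (hiso : ∀ x, Q (T x) = Q x) (hr : T ^ r = 1) (hr0 : 0 < r) {W : Submodule F V} (hW : ∀ x ∈ W, T x ∈ W) :
    ∀ x ∈ perp Q W, T x ∈ perp Q W := by
  intro x hx w hw
  rw [polar_T_left hiso hr hr0]
  exact hx _ (pow_mem_inv hW _ hw)

lemma exists_inv_compl [FiniteDimensional F V] (hrF : (r : F) ≠ 0) (hr : T ^ r = 1) (X : Submodule F V) (hX : ∀ x ∈ X, T x ∈ X) :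
    ∃ X' : Submodule F V, (∀ x ∈ X', T x ∈ X') ∧ IsCompl X X' := by
  have hsq : Squarefree (Polynomial.X ^ r - C (1 : F) : F[X]) := (separable_X_pow_sub_C (1 : F) hrF one_ne_zero).squarefree
  have hev : aeval T (Polynomial.X ^ r - C (1 : F) : F[X]) = 0 := by
    simp [hr]
  have hss := Module.End.isSemisimple_of_squarefree_aeval_eq_zero hsq hev
  obtain ⟨q, hq, hc⟩ := (Module.End.isSemisimple_iff.1 hss) X (by
    rw [Module.End.mem_invtSubmodule]
    intro x hx
    exact hX x hx)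
  refine ⟨q, ?_, hc⟩
  rw [Module.End.mem_invtSubmodule] at hq
  intro x hx
  exact hq hx

/-- Minimal invariant non-degenerate spaces. -/
theorem atom_of_minimal [Fintype F] [FiniteDimensional F V] [Nontrivial V] (hodd : Odd (Fintype.card F)) (h2 : (2 : F) ≠ 0)
    (hQ : Nondeg Q) (hrp : r.Prime) (hro : Odd r) (hrF : (r : F) ≠ 0) (hiso : ∀ x, Q (T x) = Q x) (hr : T ^ r = 1)
    (hfree : ∀ x, T x = x → x = 0)
    (hmin : ∀ X : Submodule F V, (∀ x ∈ X, T x ∈ X) → NondegOn Q X → X = ⊥ ∨ X = ⊤) : AtomOut Q T := by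
  have hr0 : 0 < r := hrp.pos
  by_cases hirr : Irr (T : V →ₗ[F] V)
  · obtain ⟨h1, h3, h4⟩ := field_atom hodd h2 hQ hrp hro hiso hr hfree hirr
    exact ⟨h1, h3, h4⟩
  · unfold Irr at hirr
    push Not at hirr
    obtain ⟨X, hX, hX0, hX1⟩ := hirr
    -- totally isotropic
    have hts : ∀ Y : Submodule F V, (∀ x ∈ Y, T x ∈ Y) → Y ≠ ⊤ → ∀ x ∈ Y, ∀ y ∈ Y, polar Q x y = 0 := by
      intro Y hY hY1
      set R := Y ⊓ perp Q Y with hR
      have hRinv : ∀ x ∈ R, T x ∈ R := fun x hx => ⟨hY x hx.1, perp_inv hiso hr hr0 hY x hx.2⟩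
      obtain ⟨X', hX', hc⟩ := exists_inv_compl hrF hr R hRinv
      have hRY : R ≤ Y := inf_le_left
      have hsup : R ⊔ (X' ⊓ Y) = Y := by
        rw [← sup_inf_assoc_of_le _ hRY, hc.sup_eq_top, top_inf_eq]
      have hnd : NondegOn Q (X' ⊓ Y) := by
        intro x hx hx0
        have hxp : x ∉ perp Q Y := by
          intro h3
          have h4 : x ∈ R ⊓ X' := ⟨⟨hx.2, h3⟩, hx.1⟩
          rw [hc.inf_eq_bot, Submodule.mem_bot] at h4
          exact hx0 h4
        rw [mem_perp] at hxp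
        push Not at hxp
        obtain ⟨w, hw, hxw⟩ := hxp
        rw [← hsup, Submodule.mem_sup] at hw
        obtain ⟨a, ha, b, hb, rfl⟩ := hw
        refine ⟨b, hb, ?_⟩
        rw [polar_add_right, polar_comm, ha.2 x hx.2, zero_add] at hxw
        exact hxw
      rcases hmin (X' ⊓ Y) (fun x hx => ⟨hX' x hx.1, hY x hx.2⟩) hnd with h3 | h3
      · rw [h3, sup_bot_eq] at hsup
        intro x hx y hy
        rw [← hsup] at hx hy
        exact hx.2 y hy.1
      · exfalso
        apply hY1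
        rw [eq_top_iff, ← h3]
        exact inf_le_right
    -- a minimal invariant subspace
    let S : Set (Submodule F V) := {U | (∀ x ∈ U, T x ∈ U) ∧ U ≠ ⊥ ∧ U ≤ X}
    obtain ⟨U, hU, hUmin⟩ := (wellFounded_lt (α := Submodule F V)).has_min S ⟨X, hX, hX0, le_rfl⟩
    obtain ⟨hUinv, hU0, hUX⟩ := hU
    obtain ⟨U', hU'inv, hc⟩ := exists_inv_compl hrF hr U hUinv
    have hU1 : U ≠ ⊤ := by
      rintro rfl
      exact hX1 (top_le_iff.1 hUX)
    have hU'1 : U' ≠ ⊤ := by
      rintro rfl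
      apply hU0
      have := hc.inf_eq_bot
      rwa [inf_top_eq] at this
    refine split_atom hodd h2 hQ hc (hts U hUinv hU1) (hts U' hU'inv hU'1) hiso hUinv hU'inv hU0 ?_
    intro Y hY
    set Y' := Y.map U.subtype with hY'
    have hY'U : Y' ≤ U := by
      rintro _ ⟨y, _, rfl⟩
      exact y.2
    have hY'inv : ∀ x ∈ Y', T x ∈ Y' := by
      rintro _ ⟨y, hy, rfl⟩
      exact ⟨_, hY y hy, rfl⟩
    by_cases h3 : Y' = ⊥
    · left
      rw [hY'] at h3
      exact eq_bot_of_map_subtype h3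
    · right
      have h4 : ¬ Y' < U := fun h5 => hUmin Y' ⟨hY'inv, h3, hY'U.trans hUX⟩ h5
      have h5 : Y' = U := eq_of_le_of_not_lt hY'U h4
      rw [eq_top_iff]
      intro y _
      have : (y : V) ∈ Y' := by
        rw [h5]
        exact y.2
      obtain ⟨z, hz, hzy⟩ := this
      have : z = y := Subtype.ext hzy
      rwa [← this]

/-- Atoms in a given space. -/
theorem exists_atom [Fintype F] [FiniteDimensional F V] [Nontrivial V] (hodd : Odd (Fintype.card F)) (h2 : (2 : F) ≠ 0)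
    (hQ : Nondeg Q) (hrp : r.Prime) (hro : Odd r) (hrF : (r : F) ≠ 0) (hiso : ∀ x, Q (T x) = Q x) (hr : T ^ r = 1)
    (hfree : ∀ x, T x = x → x = 0) :
    ∃ (W : Submodule F V) (hW : ∀ x ∈ W, T x ∈ W), W ≠ ⊥ ∧ NondegOn Q W ∧
      AtomOut (Q.comp W.subtype) (T.restrict hW) := by
  let S : Set (Submodule F V) := {W | (∀ x ∈ W, T x ∈ W) ∧ W ≠ ⊥ ∧ NondegOn Q W}
  obtain ⟨W, hW, hWmin⟩ := (wellFounded_lt (α := Submodule F V)).has_min S ⟨⊤, fun _ _ => Submodule.mem_top,
    top_ne_bot, nondegOn_top hQ⟩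
  obtain ⟨hWinv, hW0, hWnd⟩ := hW
  refine ⟨W, hWinv, hW0, hWnd, ?_⟩
  haveI : Nontrivial W := Submodule.nontrivial_iff_ne_bot.2 hW0
  have hpow : ∀ (k : ℕ) (x : W), (((T.restrict hWinv : Module.End F W) ^ k) x : V) = (T ^ k) x := by
    intro k
    induction k with
    | zero => intro x; rfl
    | succ k ih =>
      intro x
      rw [pow_succ, pow_succ, Module.End.mul_apply, Module.End.mul_apply, ih]
      rfl
  refine atom_of_minimal hodd h2 (nondeg_comp hWnd) hrp hro hrF ?_ ?_ ?_ ?_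
  · intro x
    exact hiso x
  · ext x
    rw [hpow, hr]
    rfl
  · intro x hx
    apply Subtype.ext
    exact hfree x (congrArg Subtype.val hx)
  · intro X hX hXnd
    set X' := X.map W.subtype with hX'
    have hX'W : X' ≤ W := by
      rintro _ ⟨y, _, rfl⟩
      exact y.2
    have hX'inv : ∀ x ∈ X', T x ∈ X' := by
      rintro _ ⟨y, hy, rfl⟩
      exact ⟨_, hX y hy, rfl⟩
    by_cases h3 : X' = ⊥
    · left
      rw [hX'] at h3
      exact eq_bot_of_map_subtype h3
    · right
      have hnd : NondegOn Q X' := by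
        rintro _ ⟨y, hy, rfl⟩ hy0
        obtain ⟨z, hz, hyz⟩ := hXnd y hy (by
          rintro rfl
          exact hy0 rfl)
        exact ⟨z, ⟨z, hz, rfl⟩, hyz⟩
      have h4 : ¬ X' < W := fun h5 => hWmin X' ⟨hX'inv, h3, hnd⟩ h5
      have h5 : X' = W := eq_of_le_of_not_lt hX'W h4
      rw [eq_top_iff]
      intro y _
      have : (y : V) ∈ X' := by
        rw [h5]
        exact y.2
      obtain ⟨z, hz, hzy⟩ := this
      have : z = y := Subtype.ext hzy
      rwa [← this]

end inv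

end Cfsg.Agent.Lib.PgoCent
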