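import Mathlib
import Cfsg.Agent.Lib.OrthoBasic
import Cfsg.Agent.Lib.OrthoGen
import Cfsg.Agent.Lib.PgoCent.Atoms

/-!
# Similarities commuting with an isometry of odd prime order
-/

set_option autoImplicit false
set_option linter.unusedSectionVars false
set_option linter.style.haveILetI false

namespace Cfsg.Agent.Lib.PgoCent

open Polynomial Module QuadraticMap Cfsg.Agent.Lib.OrthoBasic

universe u

section basic

variable {F : Type*} [Field F] {V : Type*} [AddCommGroup V] [Module F V]

lemma restrict_pow_apply {T : Module.End F V} {W : Submodule F V} (hW : ∀ x ∈ W, T x ∈ W) (k : ℕ) (x : W) :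
    (((T.restrict hW : Module.End F W) ^ k) x : V) = (T ^ k) x := by
  induction k generalizing x with
  | zero => rfl
  | succ k ih =>
    rw [pow_succ, pow_succ, Module.End.mul_apply, Module.End.mul_apply, ih]
    rfl

lemma restrict_pow_eq_one {T : Module.End F V} {W : Submodule F V} (hW : ∀ x ∈ W, T x ∈ W) {k : ℕ} (h : T ^ k = 1) :
    (T.restrict hW : Module.End F W) ^ k = 1 := by
  ext x
  rw [restrict_pow_apply, h]
  rfl

variable {Q : QuadraticForm F V}

/-- Similarities on the two pieces give a similarity. -/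
lemma Q_dsum {W P : Submodule F V} (hc : IsCompl W P) (hp : ∀ a ∈ W, ∀ b ∈ P, polar Q a b = 0) {ε : F}
    (y₁ : W →ₗ[F] W) (y₂ : P →ₗ[F] P) (h₁ : ∀ x : W, Q (y₁ x : V) = ε * Q (x : V)) (h₂ : ∀ x : P, Q (y₂ x : V) = ε * Q (x : V))
    (x : V) : Q (dsum hc y₁ y₂ x) = ε * Q x := by
  obtain ⟨a, b, rfl⟩ := exists_split hc x
  rw [dsum_apply, Q_add, Q_add, h₁, h₂, hp _ (y₁ a).2 _ (y₂ b).2, hp _ a.2 _ b.2]
  ring

lemma dsum_comm {W P : Submodule F V} (hc : IsCompl W P) {T : V →ₗ[F] V} (hW : ∀ x ∈ W, T x ∈ W) (hP : ∀ x ∈ P, T x ∈ P)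
    (y₁ : W →ₗ[F] W) (y₂ : P →ₗ[F] P) (h₁ : ∀ x, y₁ (T.restrict hW x) = T.restrict hW (y₁ x))
    (h₂ : ∀ x, y₂ (T.restrict hP x) = T.restrict hP (y₂ x)) (x : V) :
    dsum hc y₁ y₂ (T x) = T (dsum hc y₁ y₂ x) := by
  obtain ⟨a, b, rfl⟩ := exists_split hc x
  have ha : T (a : V) = (T.restrict hW a : V) := rfl
  have hb : T (b : V) = (T.restrict hP b : V) := rfl
  rw [map_add, ha, hb, dsum_apply, dsum_apply, map_add, h₁, h₂]
  rfl

lemma exists_Q_ne [Nontrivial V] (hQ : Nondeg Q) : ∃ x, Q x ≠ 0 := by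
  by_contra hall
  push Not at hall
  obtain ⟨e, he⟩ := exists_ne (0 : V)
  obtain ⟨y, hy⟩ := hQ e he
  apply hy
  simp [polar, hall]

end basic

section counting

variable {F : Type*} [Field F] [Fintype F]

lemma exists_sum_sq (hodd : Odd (Fintype.card F)) {c : F} (hc : c ≠ 0) (ε : F) : ∃ s t : F, s ^ 2 + c * t ^ 2 = ε := by
  have h1 : (X ^ 2 - C ε : F[X]).degree = 2 := degree_X_pow_sub_C (by norm_num) _
  have h2 : (C c * X ^ 2 : F[X]).degree = 2 := degree_C_mul_X_pow 2 hc
  obtain ⟨s, t, h3⟩ := FiniteField.exists_root_sum_quadratic h1 h2 (Nat.odd_iff.1 hodd)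
  refine ⟨s, t, ?_⟩
  simp only [eval_sub, eval_pow, eval_X, eval_C, eval_mul] at h3
  linear_combination h3

end counting

section fpf

variable {F : Type*} [Field F] [Fintype F]

/-- The fixed-point-free case. -/
theorem fpf_sim (hodd : Odd (Fintype.card F)) (h2 : (2 : F) ≠ 0) {r : ℕ} (hrp : r.Prime) (hro : Odd r) (hrF : (r : F) ≠ 0)
    (n : ℕ) : ∀ (V : Type u) [AddCommGroup V] [Module F V] [FiniteDimensional F V] (Q : QuadraticForm F V) (_ : Nondeg Q)
      (T : Module.End F V) (_ : ∀ x, Q (T x) = Q x) (_ : T ^ r = 1) (_ : ∀ x, T x = x → x = 0) (_ : finrank F V = n),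
      Even n ∧ ∀ ε : F, ε ≠ 0 → ∃ y : V →ₗ[F] V, (∀ x, Q (y x) = ε * Q x) ∧ ∀ x, y (T x) = T (y x) := by
  induction n using Nat.strong_induction_on with
  | _ n ih =>
    intro V _ _ _ Q hQ T hiso hr hfree hn
    have hr0 : 0 < r := hrp.pos
    by_cases hV : Nontrivial V
    · obtain ⟨W, hW, hW0, hnd, hA⟩ := exists_atom hodd h2 hQ hrp hro hrF hiso hr hfree
      have hc := isCompl_perp hnd
      have hP : ∀ x ∈ perp Q W, T x ∈ perp Q W := perp_inv hiso hr hr0 hW
      have hdim := Submodule.finrank_add_eq_of_isCompl hc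
      have hWpos : 0 < finrank F W := by
        haveI : Nontrivial W := Submodule.nontrivial_iff_ne_bot.2 hW0
        exact Module.finrank_pos
      obtain ⟨he, hsim⟩ := ih (finrank F (perp Q W)) (by omega) (perp Q W) (Q.comp (perp Q W).subtype)
        (nondeg_comp (nondegOn_perp hQ hnd)) (T.restrict hP) (fun x => hiso x) (restrict_pow_eq_one hP hr)
        (fun x hx => Subtype.ext (hfree x (congrArg Subtype.val hx))) rfl
      refine ⟨?_, ?_⟩
      · rw [← hn, ← hdim]
        exact hA.even.add he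
      · intro ε hε
        obtain ⟨y₁, hy₁, hy₁c⟩ := hA.sim ε hε
        obtain ⟨y₂, hy₂, hy₂c⟩ := hsim ε hε
        refine ⟨dsum hc y₁ y₂, Q_dsum hc (fun a ha b hb => by rw [polar_comm]; exact hb a ha) y₁ y₂ hy₁ hy₂,
          dsum_comm hc hW hP y₁ y₂ hy₁c hy₂c⟩
    · rw [not_nontrivial_iff_subsingleton] at hV
      refine ⟨?_, ?_⟩
      · rw [← hn, finrank_zero_of_subsingleton]
        exact Even.zero
      · intro ε _
        refine ⟨0, ?_, ?_⟩
        · intro x
          rw [Subsingleton.elim x 0]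
          simp
        · intro x
          exact Subsingleton.elim _ _

end fpf

section even

variable {F : Type*} [Field F] [Fintype F]

lemma exists_orth_pair (h2 : (2 : F) ≠ 0) {V : Type*} [AddCommGroup V] [Module F V] [FiniteDimensional F V]
    {Q : QuadraticForm F V} (hQ : Nondeg Q) (hn : 2 ≤ finrank F V) :
    ∃ x y, Q x ≠ 0 ∧ Q y ≠ 0 ∧ polar Q x y = 0 := by
  haveI : Nontrivial V := Module.nontrivial_of_finrank_pos (R := F) (by omega : 0 < finrank F V)
  obtain ⟨x, hx⟩ := exists_Q_ne hQ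
  have hpxx : polar Q x x = 2 * Q x := by
    rw [polar_self]
    simp
  have hx0 : x ≠ 0 := by
    rintro rfl
    simp at hx
  have hnd : NondegOn Q (Submodule.span F {x}) := by
    intro v hv hv0
    obtain ⟨c, rfl⟩ := Submodule.mem_span_singleton.1 hv
    refine ⟨x, Submodule.mem_span_singleton_self x, ?_⟩
    rw [polar_smul_l, hpxx]
    have hc : c ≠ 0 := by
      rintro rfl
      simp at hv0
    exact mul_ne_zero hc (mul_ne_zero h2 hx)
  have hc := isCompl_perp hnd
  have hdim := Submodule.finrank_add_eq_of_isCompl hc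
  have hone : finrank F (Submodule.span F {x}) = 1 := finrank_span_singleton hx0
  rw [hone] at hdim
  haveI : Nontrivial (perp Q (Submodule.span F {x})) := Module.nontrivial_of_finrank_pos (R := F) (by omega)
  obtain ⟨y, hy⟩ := exists_Q_ne (nondeg_comp (nondegOn_perp hQ hnd))
  refine ⟨x, y, hx, hy, ?_⟩
  rw [polar_comm]
  exact y.2 x (Submodule.mem_span_singleton_self x)

/-- Similarities in even dimension. -/
theorem even_sim (hodd : Odd (Fintype.card F)) (h2 : (2 : F) ≠ 0)
    (n : ℕ) : ∀ (V : Type u) [AddCommGroup V] [Module F V] [FiniteDimensional F V] (Q : QuadraticForm F V) (_ : Nondeg Q)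
      (_ : finrank F V = n) (_ : Even n),
      ∀ ε : F, ε ≠ 0 → ∃ y : V →ₗ[F] V, (∀ x, Q (y x) = ε * Q x) := by
  induction n using Nat.strong_induction_on with
  | _ n ih =>
    intro V _ _ _ Q hQ hn hev ε hε
    by_cases hn0 : n = 0
    · refine ⟨0, ?_⟩
      intro x
      have : Subsingleton V := (finrank_zero_iff (R := F)).1 (by rw [hn, hn0])
      rw [Subsingleton.elim x 0]
      simp
    obtain ⟨x, y₀, hx, hy, hxy⟩ := exists_orth_pair h2 hQ (by
      obtain ⟨k, hk⟩ := hev
      omega)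
    have hyx : polar Q y₀ x = 0 := by rw [polar_comm]; exact hxy
    have hpxx : polar Q x x = 2 * Q x := by
      rw [polar_self]
      simp
    have hpyy : polar Q y₀ y₀ = 2 * Q y₀ := by
      rw [polar_self]
      simp
    set c := Q y₀ / Q x with hc
    have hcne : c ≠ 0 := div_ne_zero hy hx
    have hb : Q y₀ = c * Q x := by
      rw [hc]
      field_simp
    obtain ⟨s, t, hst⟩ := exists_sum_sq hodd hcne ε
    set P := Submodule.span F {x, y₀} with hP
    have hval : ∀ v ∈ P, ∃ p q : F, v = p • x + q • y₀ := by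
      intro v hv
      obtain ⟨a, b, hab⟩ := Submodule.mem_span_pair.1 hv
      exact ⟨a, b, hab.symm⟩
    have hQv : ∀ p q : F, Q (p • x + q • y₀) = p ^ 2 * Q x + q ^ 2 * Q y₀ := by
      intro p q
      rw [Q_add, Q_smul, Q_smul, polar_smul_l, polar_smul_r, hxy]
      ring
    have hnd : NondegOn Q P := by
      intro v hv hv0
      obtain ⟨p, q, rfl⟩ := hval v hv
      by_cases hp : p = 0
      · refine ⟨y₀, Submodule.subset_span (by simp), ?_⟩
        rw [polar_add_left, polar_smul_l, polar_smul_l, hxy, hpyy]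
        have hq : q ≠ 0 := by
          rintro rfl
          apply hv0
          simp [hp]
        simp only [mul_zero, zero_add]
        exact mul_ne_zero hq (mul_ne_zero h2 hy)
      · refine ⟨x, Submodule.subset_span (by simp), ?_⟩
        rw [polar_add_left, polar_smul_l, polar_smul_l, hyx, hpxx]
        simp only [mul_zero, add_zero]
        exact mul_ne_zero hp (mul_ne_zero h2 hx)
    have hc' := isCompl_perp hnd
    have hdim := Submodule.finrank_add_eq_of_isCompl hc'
    have hPdim : finrank F P = 2 := by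
      have hli : LinearIndependent F ![x, y₀] := by
        rw [LinearIndependent.pair_iff]
        intro p q h0
        have h3 := congrArg (fun v => polar Q v x) h0
        have h4 := congrArg (fun v => polar Q v y₀) h0
        simp only [polar_add_left, polar_smul_l, polar_zero_left, hyx, hxy, hpxx, hpyy, mul_zero, add_zero, zero_add] at h3 h4
        refine ⟨?_, ?_⟩
        · exact (mul_eq_zero.1 h3).resolve_right (mul_ne_zero h2 hx)
        · exact (mul_eq_zero.1 h4).resolve_right (mul_ne_zero h2 hy)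
      have h5 := finrank_span_eq_card hli
      have h6 : Set.range ![x, y₀] = {x, y₀} := by simp [Matrix.range_cons, Set.pair_comm]
      rw [h6] at h5
      simpa using h5
    obtain ⟨y₂, hy₂⟩ := ih (finrank F (perp Q P)) (by omega) (perp Q P) (Q.comp (perp Q P).subtype)
      (nondeg_comp (nondegOn_perp hQ hnd)) rfl (by
        have : finrank F (perp Q P) = n - 2 := by omega
        rw [this]
        obtain ⟨k, hk⟩ := hev
        have : 2 ≤ n := by omega
        exact ⟨k - 1, by omega⟩) ε hε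
    -- the map on the plane
    let α : V →ₗ[F] F := (2 * Q x)⁻¹ • (polarBilin Q).flip x
    let β : V →ₗ[F] F := (2 * Q y₀)⁻¹ • (polarBilin Q).flip y₀
    have hα : ∀ v, α v = (2 * Q x)⁻¹ * polar Q v x := fun _ => rfl
    have hβ : ∀ v, β v = (2 * Q y₀)⁻¹ * polar Q v y₀ := fun _ => rfl
    have hαv : ∀ p q : F, α (p • x + q • y₀) = p := by
      intro p q
      rw [hα, polar_add_left, polar_smul_l, polar_smul_l, hyx, hpxx]
      have : 2 * Q x ≠ 0 := mul_ne_zero h2 hx
      field_simp
      ring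
    have hβv : ∀ p q : F, β (p • x + q • y₀) = q := by
      intro p q
      rw [hβ, polar_add_left, polar_smul_l, polar_smul_l, hxy, hpyy]
      have : 2 * Q y₀ ≠ 0 := mul_ne_zero h2 hy
      field_simp
      ring
    let Y : V →ₗ[F] V := α.smulRight (s • x + t • y₀) + β.smulRight ((-(c * t)) • x + s • y₀)
    have hY : ∀ p q : F, Y (p • x + q • y₀) = (p * s - q * (c * t)) • x + (p * t + q * s) • y₀ := by
      intro p q
      simp only [Y, LinearMap.add_apply, LinearMap.smulRight_apply, hαv, hβv]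
      module
    have hYP : ∀ v ∈ P, Y v ∈ P := by
      intro v hv
      obtain ⟨p, q, rfl⟩ := hval v hv
      rw [hY]
      exact Submodule.mem_span_pair.2 ⟨_, _, rfl⟩
    refine ⟨dsum hc' (Y.restrict hYP) y₂, Q_dsum hc' (fun a ha b hb => by rw [polar_comm]; exact hb a ha) _ _ ?_ hy₂⟩
    rintro ⟨v, hv⟩
    obtain ⟨p, q, rfl⟩ := hval v hv
    change Q (Y (p • x + q • y₀)) = _
    rw [hY, hQv, hQv, hb, ← hst]
    ring

end even

section fixed

variable {F : Type*} [Field F] [Fintype F] {V : Type u} [AddCommGroup V] [Module F V] [FiniteDimensional F V]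
  {Q : QuadraticForm F V} {T : Module.End F V}

/-- The fixed space. -/
def fixS (T : Module.End F V) : Submodule F V := LinearMap.ker (T - 1)

lemma mem_fixS {x : V} : x ∈ fixS T ↔ T x = x := by
  rw [fixS, LinearMap.mem_ker, LinearMap.sub_apply, sub_eq_zero]
  rfl

lemma fixS_nondeg (hQ : Nondeg Q) {r : ℕ} (hrF : (r : F) ≠ 0) (hiso : ∀ x, Q (T x) = Q x) (hr : T ^ r = 1) :
    NondegOn Q (fixS T) := by
  intro z hz hz0
  have hz' : T z = z := mem_fixS.1 hz
  obtain ⟨v, hv⟩ := hQ z hz0
  have hzpow : ∀ i : ℕ, (T ^ i) z = z := by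
    intro i
    induction i with
    | zero => rfl
    | succ i ih => rw [pow_succ, Module.End.mul_apply, hz', ih]
  have hpow : ∀ (i : ℕ) (a b : V), polar Q ((T ^ i) a) ((T ^ i) b) = polar Q a b := by
    intro i
    induction i with
    | zero => intro a b; rfl
    | succ i ih =>
      intro a b
      rw [pow_succ, Module.End.mul_apply, Module.End.mul_apply, ih, polar_T hiso]
  set N := ∑ i ∈ Finset.range r, (T ^ i) v with hN
  refine ⟨N, ?_, ?_⟩
  · rw [mem_fixS, hN, map_sum]
    have h1 : ∀ i, T ((T ^ i) v) = (T ^ (i + 1)) v := by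
      intro i
      rw [pow_succ', Module.End.mul_apply]
    simp only [h1]
    have h3 := Finset.sum_range_succ' (fun i => (T ^ i) v) r
    have h4 := Finset.sum_range_succ (fun i => (T ^ i) v) r
    rw [h3] at h4
    simp only [hr, pow_zero] at h4
    exact add_right_cancel h4
  · rw [hN]
    have h2 : polar Q z (∑ i ∈ Finset.range r, (T ^ i) v) = (r : F) * polar Q z v := by
      have h3 : ∀ i, polar Q z ((T ^ i) v) = polar Q z v := by
        intro i
        conv_lhs => rw [← hzpow i]
        exact hpow i z v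
      have h4 : ∀ s : Finset ℕ, polar Q z (∑ i ∈ s, (T ^ i) v) = ∑ i ∈ s, polar Q z ((T ^ i) v) := by
        intro s
        induction s using Finset.induction_on with
        | empty => simp
        | insert a s ha ih => rw [Finset.sum_insert ha, Finset.sum_insert ha, polar_add_right, ih]
      rw [h4, Finset.sum_congr rfl (fun i _ => h3 i), Finset.sum_const, Finset.card_range, nsmul_eq_mul]
    rw [h2]
    exact mul_ne_zero hrF hv

/-- Similarities commuting with an isometry of prime order. -/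
theorem exists_sim_comm (hodd : Odd (Fintype.card F)) (h2 : (2 : F) ≠ 0) (hQ : Nondeg Q) {r : ℕ} (hrp : r.Prime) (hro : Odd r)
    (hrF : (r : F) ≠ 0) (hiso : ∀ x, Q (T x) = Q x) (hr : T ^ r = 1) (hev : Even (finrank F V)) {ε : F} (hε : ε ≠ 0) :
    ∃ y : V →ₗ[F] V, (∀ x, Q (y x) = ε * Q x) ∧ ∀ x, y (T x) = T (y x) := by
  have hr0 : 0 < r := hrp.pos
  have hnd := fixS_nondeg hQ hrF hiso hr
  have hc := isCompl_perp hnd
  have hZ : ∀ x ∈ fixS T, T x ∈ fixS T := by
    intro x hx
    rw [mem_fixS.1 hx]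
    exact hx
  have hK : ∀ x ∈ perp Q (fixS T), T x ∈ perp Q (fixS T) := perp_inv hiso hr hr0 hZ
  obtain ⟨he, hsim⟩ := fpf_sim hodd h2 hrp hro hrF _ (perp Q (fixS T)) (Q.comp (perp Q (fixS T)).subtype)
    (nondeg_comp (nondegOn_perp hQ hnd)) (T.restrict hK) (fun x => hiso x) (restrict_pow_eq_one hK hr)
    (fun x hx => by
      have h1 : T x = x := congrArg Subtype.val hx
      have h2 : (x : V) ∈ fixS T ⊓ perp Q (fixS T) := ⟨mem_fixS.2 h1, x.2⟩
      rw [hc.inf_eq_bot, Submodule.mem_bot] at h2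
      exact Subtype.ext h2) rfl
  have hdim := Submodule.finrank_add_eq_of_isCompl hc
  have hZe : Even (finrank F (fixS T)) := by
    rw [← hdim] at hev
    exact (Nat.even_add.1 hev).2 he
  obtain ⟨y₁, hy₁⟩ := even_sim hodd h2 _ (fixS T) (Q.comp (fixS T).subtype) (nondeg_comp hnd) rfl hZe ε hε
  obtain ⟨y₂, hy₂, hy₂c⟩ := hsim ε hε
  refine ⟨dsum hc y₁ y₂, Q_dsum hc (fun a ha b hb => by rw [polar_comm]; exact hb a ha) y₁ y₂ hy₁ hy₂,
    dsum_comm hc hZ hK y₁ y₂ ?_ hy₂c⟩
  intro x
  have h1 : T.restrict hZ x = x := Subtype.ext (mem_fixS.1 x.2)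
  rw [h1]
  exact (Subtype.ext (mem_fixS.1 (y₁ x).2)).symm

end fixed

end Cfsg.Agent.Lib.PgoCent
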