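import Mathlib
import Cfsg.Agent.Lib.OrthoChar
import Cfsg.Agent.Lib.PgoCent.SimT

/-!
# Signs of free actions
-/

set_option autoImplicit false
set_option linter.unusedSectionVars false
set_option linter.style.haveILetI false

namespace Cfsg.Agent.Lib.PgoCent

open Module QuadraticMap Cfsg.Agent.Lib.OrthoBasic Cfsg.Agent.Lib.OrthoChar

section perm

variable {X : Type*} [Fintype X] [DecidableEq X]

/-- All cycles of a permutation with uniform orbit lengths have that length. -/
lemma cycleType_uniform (π : Equiv.Perm X) {L : ℕ} (hfree : ∀ x, π x ≠ x → ∀ i : ℕ, (π ^ i) x = x ↔ L ∣ i) :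
    ∀ n ∈ π.cycleType, n = L := by
  intro n hn
  rw [Equiv.Perm.cycleType_def, Multiset.mem_map] at hn
  obtain ⟨c, hc, rfl⟩ := hn
  have hc' : c ∈ π.cycleFactorsFinset := hc
  rw [Equiv.Perm.mem_cycleFactorsFinset_iff] at hc'
  obtain ⟨hcyc, hon⟩ := hc'
  obtain ⟨x, hx⟩ : c.support.Nonempty := by
    rw [Finset.nonempty_iff_ne_empty, Ne, Equiv.Perm.support_eq_empty_iff]
    exact hcyc.ne_one
  have hpow : ∀ i : ℕ, (c ^ i) x = (π ^ i) x := by
    intro i
    induction i with
    | zero => rfl
    | succ i ih =>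
      rw [pow_succ', pow_succ', Equiv.Perm.mul_apply, Equiv.Perm.mul_apply, ← ih]
      apply hon
      exact Equiv.Perm.pow_apply_mem_support.2 hx
  have hπx : π x ≠ x := by
    rw [← hon x hx]
    exact Equiv.Perm.mem_support.1 hx
  have hcx : c x ≠ x := Equiv.Perm.mem_support.1 hx
  have hiff : ∀ i : ℕ, c ^ i = 1 ↔ L ∣ i := by
    intro i
    rw [hcyc.pow_eq_one_iff' hcx, hpow]
    exact hfree x hπx i
  simp only [Function.comp_apply]
  rw [← hcyc.orderOf]
  apply Nat.dvd_antisymm
  · apply orderOf_dvd_of_pow_eq_one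
    exact (hiff L).2 dvd_rfl
  · exact (hiff _).1 (pow_orderOf_eq_one c)

/-- The support has size divisible by the orbit length. -/
lemma support_card_dvd (π : Equiv.Perm X) {L : ℕ} (hfree : ∀ x, π x ≠ x → ∀ i : ℕ, (π ^ i) x = x ↔ L ∣ i) :
    L ∣ π.support.card := by
  rw [← Equiv.Perm.sum_cycleType]
  apply Multiset.dvd_sum
  intro n hn
  rw [cycleType_uniform π hfree n hn]

/-- The sign of a permutation with uniform orbit length. -/
lemma sign_uniform (π : Equiv.Perm X) {L k : ℕ} (hL : Even L) (hL0 : 0 < L)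
    (hfree : ∀ x, π x ≠ x → ∀ i : ℕ, (π ^ i) x = x ↔ L ∣ i) (hcard : π.support.card = L * k) :
    Equiv.Perm.sign π = (-1) ^ k := by
  have h1 := Multiset.eq_replicate.2 ⟨rfl, cycleType_uniform π hfree⟩
  have h2 := Equiv.Perm.sum_cycleType π
  rw [h1, Multiset.sum_replicate, smul_eq_mul, hcard, mul_comm] at h2
  have h3 : Multiset.card π.cycleType = k := Nat.eq_of_mul_eq_mul_left hL0 h2
  rw [Equiv.Perm.sign_of_cycleType, h1, Multiset.sum_replicate, Multiset.card_replicate, h3, smul_eq_mul]
  rw [pow_add, mul_comm k L, pow_mul, hL.neg_one_pow, one_pow, one_mul]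

end perm

section chi

variable {F : Type*} [Field F] [Fintype F] {V : Type*} [AddCommGroup V] [Module F V] [FiniteDimensional F V] [Finite V]
  {Q : QuadraticForm F V}

/-- Divisibility of the number of nonzero singular vectors. -/
lemma dvd_card_singular (hQ : Nondeg Q) {T₀ u : V →ₗ[F] V} {L A : ℕ} (hF : FreeIso Q T₀ u L A) (hL : 2 ≤ L) :
    L ∣ Nat.card {a : V // a ≠ 0 ∧ Q a = 0} := by
  classical
  letI : Fintype {a : V // a ≠ 0 ∧ Q a = 0} := Fintype.ofFinite _
  let g₀ := OG.ofLinear hQ u hF.iso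
  have hg₀ : ∀ x, (g₀ : V ≃ₗ[F] V) x = u x := fun _ => rfl
  let π : Equiv.Perm {a : V // a ≠ 0 ∧ Q a = 0} := (g₀ : V ≃ₗ[F] V).toEquiv.subtypeEquiv (fun a => by
    change a ≠ 0 ∧ Q a = 0 ↔ (g₀ : V ≃ₗ[F] V) a ≠ 0 ∧ Q ((g₀ : V ≃ₗ[F] V) a) = 0
    rw [hg₀, hF.iso]
    constructor
    · rintro ⟨h1, h3⟩
      refine ⟨?_, h3⟩
      intro h4
      apply h1
      rw [← hg₀] at h4
      simpa using h4
    · rintro ⟨h1, h3⟩
      refine ⟨?_, h3⟩
      rintro rfl
      simp at h1)
  have hπ : ∀ x, ((π x : {a : V // a ≠ 0 ∧ Q a = 0}) : V) = u x.1 := fun _ => rfl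
  have hpow : ∀ (i : ℕ) (x : {a : V // a ≠ 0 ∧ Q a = 0}), (((π ^ i) x : {a : V // a ≠ 0 ∧ Q a = 0}) : V) = ((u : Module.End F V) ^ i) x.1 := by
    intro i
    induction i with
    | zero => intro x; rfl
    | succ i ih =>
      intro x
      rw [pow_succ, Equiv.Perm.mul_apply, ih, hπ, pow_succ, Module.End.mul_apply]
  have hfree : ∀ x, ∀ i : ℕ, (π ^ i) x = x ↔ L ∣ i := by
    intro x i
    rw [← hF.free x.1 x.2.1 i, ← hpow]
    constructor
    · intro h
      rw [h]
    · intro h
      exact Subtype.ext h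
  have hsupp : π.support = Finset.univ := by
    ext x
    simp only [Equiv.Perm.mem_support, Finset.mem_univ, iff_true]
    intro h
    have h1 : (π ^ 1) x = x := by rwa [pow_one]
    have h3 := (hfree x 1).1 h1
    have h4 := Nat.le_of_dvd one_pos h3
    omega
  have h5 := support_card_dvd π (fun x _ i => hfree x i)
  rwa [hsupp, Finset.card_univ, ← Nat.card_eq_fintype_card] at h5

open scoped Classical in
/-- The sign of a free isometry on a non-degenerate subspace. -/
theorem chi_dsum (hodd : Odd (Fintype.card F)) (h2 : (2 : F) ≠ 0) (hQ : Nondeg Q) {W : Submodule F V} (hnd : NondegOn Q W)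
    {T₀ u : W →ₗ[F] W} {L A : ℕ} (hF : FreeIso (Q.comp W.subtype) T₀ u L A)
    (hw : ∀ x, Q (dsum (isCompl_perp hnd) u LinearMap.id x) = Q x) :
    chi Q (OG.ofLinear hQ (dsum (isCompl_perp hnd) u LinearMap.id) hw) = -1 := by
  letI : Fintype {v : V // Q v = 1} := Fintype.ofFinite _
  haveI : Finite W := Finite.of_injective _ (Submodule.subtype_injective W)
  set hc := isCompl_perp hnd with hcd
  set P := perp Q W with hP
  haveI : Finite P := Finite.of_injective _ (Submodule.subtype_injective P)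
  letI : Fintype P := Fintype.ofFinite _
  set w := dsum hc u LinearMap.id with hwd
  set g := OG.ofLinear hQ w hw with hg
  change Equiv.Perm.sign (levelAct Q 1 g) = _
  set σ := levelAct Q 1 g with hσ
  have hL2 : 2 ≤ L := by
    obtain ⟨k, hk⟩ := hF.evenL
    have := hF.posL
    omega
  have hσa : ∀ x : {v : V // Q v = 1}, ((σ x : {v : V // Q v = 1}) : V) = w x.1 := fun _ => rfl
  have hwab : ∀ (a : W) (z : P), w ((a : V) + z) = (u a : V) + z := by
    intro a z
    rw [hwd, dsum_apply]
    rfl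
  have hpoly : ∀ (a : W) (z : P), polar Q (a : V) (z : V) = 0 := by
    intro a z
    rw [polar_comm]
    exact z.2 a a.2
  have hQaz : ∀ (a : W) (z : P), Q ((a : V) + z) = Q (a : V) + Q (z : V) := by
    intro a z
    rw [Q_add, hpoly, add_zero]
  have hpow : ∀ (i : ℕ) (x : {v : V // Q v = 1}), (((σ ^ i) x : {v : V // Q v = 1}) : V) = ((w : Module.End F V) ^ i) x.1 := by
    intro i
    induction i with
    | zero => intro x; rfl
    | succ i ih =>
      intro x
      rw [pow_succ, Equiv.Perm.mul_apply, ih, hσa, pow_succ, Module.End.mul_apply]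
  have hwpow : ∀ (i : ℕ) (a : W) (z : P), ((w : Module.End F V) ^ i) ((a : V) + z) = (((u : Module.End F W) ^ i) a : V) + z := by
    intro i a z
    rw [hwd, dsum_pow, dsum_apply]
    have : ((LinearMap.id : P →ₗ[F] P) : Module.End F P) ^ i = 1 := one_pow i
    rw [this]
    rfl
  have hfix : ∀ a : W, u a = a → a = 0 := by
    intro a ha
    by_contra ha0
    have h3 := (hF.free a ha0 1).1 (by rwa [pow_one])
    have h4 := Nat.le_of_dvd one_pos h3
    omega
  have hmoved : ∀ (x : {v : V // Q v = 1}) (a : W) (z : P), x.1 = (a : V) + z → (σ x ≠ x ↔ a ≠ 0) := by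
    intro x a z hx
    constructor
    · rintro h rfl
      apply h
      apply Subtype.ext
      rw [hσa, hx, hwab, map_zero]
    · intro ha h
      apply ha
      apply hfix
      have h3 := congrArg Subtype.val h
      rw [hσa, hx, hwab] at h3
      exact Subtype.ext (add_right_cancel h3)
  have hfree : ∀ x, σ x ≠ x → ∀ i : ℕ, (σ ^ i) x = x ↔ L ∣ i := by
    intro x hx i
    obtain ⟨a, z, hv⟩ := exists_split hc x.1
    have ha := (hmoved x a z hv).1 hx
    rw [← hF.free a ha i]
    constructor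
    · intro h
      have h3 := congrArg Subtype.val h
      rw [hpow, hv, hwpow] at h3
      exact Subtype.ext (add_right_cancel h3)
    · intro h
      apply Subtype.ext
      rw [hpow, hv, hwpow, h]
  -- the count
  obtain ⟨c₀, hc₀⟩ := dvd_card_singular (nondeg_comp hnd) hF hL2
  have hc₀' : Nat.card {a : W // a ≠ 0 ∧ Q (a : V) = 0} = L * c₀ := hc₀
  have hcount : ∀ t : F, t ≠ 0 → Nat.card {a : W // a ≠ 0 ∧ Q (a : V) = t} = L * A := by
    intro t ht
    rw [← hF.count t ht]
    apply Nat.card_congr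
    refine Equiv.subtypeEquivRight (fun a => ?_)
    constructor
    · rintro ⟨_, h3⟩
      exact h3
    · intro h3
      refine ⟨?_, h3⟩
      rintro rfl
      apply ht
      rw [← h3]
      simp
  have hsupp : σ.support.card = ∑ z : P, L * (if Q (z : V) = 1 then c₀ else A) := by
    have h3 : σ.support.card = Nat.card {x // x ∈ σ.support} := by
      rw [Nat.card_eq_fintype_card, Fintype.card_coe]
    rw [h3]
    have h4 : Nat.card {x // x ∈ σ.support} = Nat.card {p : P × W // p.2 ≠ 0 ∧ Q (p.2 : V) = 1 - Q (p.1 : V)} := by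
      symm
      let f : {p : P × W // p.2 ≠ 0 ∧ Q (p.2 : V) = 1 - Q (p.1 : V)} → {x // x ∈ σ.support} := fun p =>
        ⟨⟨(p.1.2 : V) + p.1.1, by rw [hQaz, p.2.2]; ring⟩, by
          rw [Equiv.Perm.mem_support]
          exact (hmoved _ p.1.2 p.1.1 rfl).2 p.2.1⟩
      apply Nat.card_congr
      refine Equiv.ofBijective f ⟨?_, ?_⟩
      · rintro ⟨⟨z, a⟩, hp⟩ ⟨⟨z', a'⟩, hp'⟩ h
        have h5 : (a : V) + z = (a' : V) + z' := congrArg (fun x => ((x.1 : {v : V // Q v = 1}) : V)) h
        obtain ⟨h6, h7⟩ := split_unique hc h5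
        subst h6 h7
        rfl
      · rintro ⟨x, hx⟩
        obtain ⟨a, z, hv⟩ := exists_split hc x.1
        have ha : a ≠ 0 := (hmoved x a z hv).1 (Equiv.Perm.mem_support.1 hx)
        have hx1 : Q (a : V) = 1 - Q (z : V) := by
          have h5 := x.2
          rw [hv, hQaz] at h5
          rw [← h5]
          ring
        refine ⟨⟨(z, a), ha, hx1⟩, ?_⟩
        apply Subtype.ext
        apply Subtype.ext
        exact hv.symm
    rw [h4]
    have h5 : Nat.card {p : P × W // p.2 ≠ 0 ∧ Q (p.2 : V) = 1 - Q (p.1 : V)}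
        = ∑ z : P, Nat.card {a : W // a ≠ 0 ∧ Q (a : V) = 1 - Q (z : V)} := by
      rw [← Nat.card_sigma]
      apply Nat.card_congr
      exact Equiv.subtypeProdEquivSigmaSubtype (fun (z : P) (a : W) => a ≠ 0 ∧ Q (a : V) = 1 - Q (z : V))
    rw [h5]
    apply Finset.sum_congr rfl
    intro z _
    by_cases hz : Q (z : V) = 1
    · rw [if_pos hz, hz, sub_self, hc₀']
    · rw [if_neg hz]
      exact hcount _ (sub_ne_zero.2 (Ne.symm hz))
  rw [← Finset.mul_sum] at hsupp
  have hsign := sign_uniform σ hF.evenL hF.posL hfree hsupp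
  rw [hsign]
  apply Odd.neg_one_pow
  rw [Finset.sum_ite, Finset.sum_const, Finset.sum_const, smul_eq_mul, smul_eq_mul]
  have hm₁ : Even (Finset.univ.filter fun z : P => Q (z : V) = 1).card := by
    rw [← Fintype.card_subtype]
    apply even_card_of_invol (fun z => ⟨-z.1, by
      have := z.2
      rw [Submodule.coe_neg, QuadraticMap.map_neg]
      exact this⟩)
    · intro z
      apply Subtype.ext
      simp
    · intro z h
      have h3 : -z.1 = z.1 := congrArg Subtype.val h
      have h4 : (2 : F) • z.1 = 0 := by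
        rw [two_smul]
        nth_rewrite 1 [← h3]
        simp
      have h5 : z.1 = 0 := (smul_eq_zero.1 h4).resolve_left h2
      have h6 := z.2
      rw [h5] at h6
      simp at h6
  have hPodd : Odd (Finset.univ : Finset P).card := by
    rw [Finset.card_univ, Module.card_eq_pow_finrank (K := F)]
    exact hodd.pow
  have hsum := Finset.card_filter_add_card_filter_not (s := (Finset.univ : Finset P)) (fun z : P => Q (z : V) = 1)
  rw [← hsum] at hPodd
  have hm₀ : Odd (Finset.univ.filter fun z : P => ¬ Q (z : V) = 1).card := by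
    rcases Nat.even_or_odd (Finset.univ.filter fun z : P => ¬ Q (z : V) = 1).card with h | h
    · exact absurd (hm₁.add h) (Nat.not_even_iff_odd.2 hPodd)
    · exact h
  exact (hm₁.mul_right _).add_odd (hm₀.mul hF.oddA)

end chi

end Cfsg.Agent.Lib.PgoCent
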