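import Mathlib
import Cfsg.Agent.Lib.AutPSU.GraphCountU
import Cfsg.Agent.Lib.PgoCent.Sign

/-!
# Determinants of similarities commuting with a fixed-point-free isometry
-/

set_option autoImplicit false
set_option linter.unusedSectionVars false
set_option linter.style.haveILetI false

namespace Cfsg.Agent.Lib.PgoCent

open Module QuadraticMap Cfsg.Agent.Lib.OrthoBasic Matrix

variable {F : Type*} [Field F] {V : Type*} [AddCommGroup V] [Module F V] [FiniteDimensional F V]

/-- The Pfaffian argument. -/
theorem det_sim_fpf [Fintype F] (h2 : (2 : F) ≠ 0) {Q : QuadraticForm F V} (hQ : Nondeg Q) {T : Module.End F V} {r : ℕ}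
    (hro : Odd r) (hiso : ∀ x, Q (T x) = Q x) (hr : T ^ r = 1) (hfree : ∀ x, T x = x → x = 0) {ε : F} (hε : ε ≠ 0)
    {y : V →ₗ[F] V} (hy : ∀ x, Q (y x) = ε * Q x) (hc : ∀ x, y (T x) = T (y x)) {m : ℕ} (hn : finrank F V = 2 * m) :
    LinearMap.det y = ε ^ m := by
  classical
  obtain ⟨k, hk⟩ := hro
  have hr0 : 0 < r := by omega
  set Ti : Module.End F V := T ^ (r - 1) with hTid
  have hTTi : ∀ x, T (Ti x) = x := by
    intro x
    have : T * T ^ (r - 1) = 1 := by rw [← pow_succ', Nat.sub_add_cancel hr0, hr]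
    exact LinearMap.congr_fun this x
  have hTiT : ∀ x, Ti (T x) = x := by
    intro x
    have : T ^ (r - 1) * T = 1 := by rw [← pow_succ, Nat.sub_add_cancel hr0, hr]
    exact LinearMap.congr_fun this x
  have hpT : ∀ a c, polar Q (T a) (T c) = polar Q a c := polar_T hiso
  set M : Module.End F V := T - Ti with hM
  have hMa : ∀ a, M a = T a - Ti a := fun _ => rfl
  have hMinj : Function.Injective M := by
    rw [injective_iff_map_eq_zero]
    intro x hx
    apply hfree
    have h1 : T x = Ti x := sub_eq_zero.1 hx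
    have h3 : T (T x) = x := by rw [h1, hTTi]
    have h4 : ∀ j : ℕ, (T ^ (2 * j)) x = x := by
      intro j
      induction j with
      | zero => rfl
      | succ j ih =>
        rw [show 2 * (j + 1) = 2 * j + 2 by ring, pow_add, Module.End.mul_apply, pow_two, Module.End.mul_apply, h3, ih]
    have h5 : (T ^ (2 * (k + 1))) x = x := h4 _
    rw [show 2 * (k + 1) = r + 1 by omega, pow_succ, hr, one_mul] at h5
    exact h5
  have hMsurj : Function.Surjective M := LinearMap.injective_iff_surjective.1 hMinj
  have hskew : ∀ a c, polar Q (M a) c = - polar Q (M c) a := by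
    intro a c
    have h1 : polar Q (T a) c = polar Q a (Ti c) := by
      conv_lhs => rw [← hTTi c]
      exact hpT _ _
    have h3 : polar Q (Ti a) c = polar Q a (T c) := by
      conv_lhs => rw [← hTiT c]
      rw [← hpT, hTTi, hTTi]
    rw [hMa, hMa, polar_sub_left, polar_sub_left, h1, h3, polar_comm Q (T c) a, polar_comm Q (Ti c) a]
    ring
  have hyTi : ∀ x, y (Ti x) = Ti (y x) := by
    intro x
    conv_rhs => rw [← hTTi x, hc, hTiT]
  have hMy : ∀ a, M (y a) = y (M a) := by
    intro a
    rw [hMa, hMa, map_sub, hc, hyTi]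
  have hpy : ∀ a c, polar Q (y a) (y c) = ε * polar Q a c := by
    intro a c
    simp only [polar, ← map_add, hy]
    ring
  let B' : LinearMap.BilinForm F V := (polarBilin Q).comp M
  have hB' : ∀ a c, B' a c = polar Q (M a) c := fun _ _ => rfl
  let b := Module.finBasis F V
  set G := LinearMap.BilinForm.toMatrix b B' with hG
  have hGt : Gᵀ = -G := by
    ext i j
    rw [Matrix.transpose_apply, Matrix.neg_apply, hG, LinearMap.BilinForm.toMatrix_apply, LinearMap.BilinForm.toMatrix_apply,
      hB', hB']
    exact hskew _ _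
  have hGdet : G.det ≠ 0 := by
    intro h0
    obtain ⟨v, hv, hGv⟩ := Matrix.exists_mulVec_eq_zero_iff.2 h0
    set x := b.repr.symm (Finsupp.equivFunOnFinite.symm v) with hx
    have hrepr : ⇑(b.repr x) = v := by
      rw [hx, LinearEquiv.apply_symm_apply]
      rfl
    have hx0 : x ≠ 0 := by
      rintro h
      apply hv
      rw [← hrepr, h]
      simp
    have h1 : ∀ a, B' a x = 0 := by
      intro a
      rw [LinearMap.BilinForm.apply_eq_dotProduct_toMatrix_mulVec b, hrepr, ← hG, hGv, dotProduct_zero]
    obtain ⟨z, hz⟩ := hQ x hx0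
    apply hz
    obtain ⟨a, rfl⟩ := hMsurj z
    have h3 := h1 a
    rw [hB', polar_comm] at h3
    exact h3
  set Y := LinearMap.toMatrix b b y with hY
  have hYG : Yᵀ * G * Y = ε • G := by
    have h1 : B'.comp y y = ε • B' := by
      ext a c
      change polar Q (M (y a)) (y c) = ε * polar Q (M a) c
      rw [hMy, hpy]
    have h3 := LinearMap.BilinForm.toMatrix_comp b b B' y y
    rw [h1, LinearEquiv.map_smul] at h3
    exact h3.symm
  have hYdet : Y.det ≠ 0 := by
    intro h0
    have h1 := congrArg Matrix.det hYG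
    rw [Matrix.det_mul, Matrix.det_mul, h0, mul_zero, Matrix.det_smul] at h1
    exact mul_ne_zero (pow_ne_zero _ hε) hGdet h1.symm
  let Bg : GL (Fin (finrank F V)) F := Matrix.GeneralLinearGroup.mkOfDetNeZero G hGdet
  let wg : GL (Fin (finrank F V)) F := Matrix.GeneralLinearGroup.mkOfDetNeZero Y hYdet
  have h5 := Cfsg.Agent.Lib.AutPSU.GB.det_of_sim_alt h2 hn Bg wg (c := Units.mk0 ε hε) hGt hYG
  have h6 : LinearMap.det y = Y.det := (LinearMap.det_toMatrix b y).symm
  rw [h6]
  exact h5

end Cfsg.Agent.Lib.PgoCent
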