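import Mathlib
import Cfsg.Agent.Lib.PgoSim
import Cfsg.Agent.Lib.PgoCent.Proper

/-!
# The centraliser of an isometry of odd prime order
-/

set_option autoImplicit false
set_option linter.unusedSectionVars false
set_option linter.style.haveILetI false

namespace Cfsg.Agent.Lib.PgoCent

open Module QuadraticMap Cfsg.Agent.Lib.OrthoBasic Cfsg.Agent.Lib.OrthoGen Cfsg.Agent.Lib.OrthoChar Cfsg.Agent.Lib.OrthoSiegel
  Matrix

universe u

variable {F : Type*} [Field F] [Fintype F] {V : Type u} [AddCommGroup V] [Module F V] [FiniteDimensional F V] [Finite V]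
  {Q : QuadraticForm F V} {T : Module.End F V}

lemma refl_comm (hiso : ∀ x, Q (T x) = Q x) {x : V} (hTx : T x = x) (v : V) :
    reflLin Q x (T v) = T (reflLin Q x v) := by
  rw [reflLin_apply, reflLin_apply, map_sub, map_smul, hTx]
  congr 3
  conv_lhs => rw [← hTx]
  exact polar_T hiso _ _

/-- The parity of the fixed space. -/
lemma even_fixS (hodd : Odd (Fintype.card F)) (h2 : (2 : F) ≠ 0) (hQ : Nondeg Q) {r : ℕ} (hrp : r.Prime) (hro : Odd r)
    (hrF : (r : F) ≠ 0) (hiso : ∀ x, Q (T x) = Q x) (hr : T ^ r = 1) (hev : Even (finrank F V)) :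
    Even (finrank F (fixS T)) := by
  have hr0 : 0 < r := hrp.pos
  have hnd := fixS_nondeg hQ hrF hiso hr
  have hc := isCompl_perp hnd
  have hZ : ∀ x ∈ fixS T, T x ∈ fixS T := by
    intro x hx
    rw [mem_fixS.1 hx]
    exact hx
  have hK : ∀ x ∈ perp Q (fixS T), T x ∈ perp Q (fixS T) := perp_inv hiso hr hr0 hZ
  obtain ⟨he, -⟩ := fpf_sim hodd h2 hrp hro hrF _ (perp Q (fixS T)) (Q.comp (perp Q (fixS T)).subtype)
    (nondeg_comp (nondegOn_perp hQ hnd)) (T.restrict hK) (fun x => hiso x) (restrict_pow_eq_one hK hr)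
    (fun x hx => by
      have h1 : T x = x := congrArg Subtype.val hx
      have h2 : (x : V) ∈ fixS T ⊓ perp Q (fixS T) := ⟨mem_fixS.2 h1, x.2⟩
      rw [hc.inf_eq_bot, Submodule.mem_bot] at h2
      exact Subtype.ext h2) rfl
  have hdim := Submodule.finrank_add_eq_of_isCompl hc
  rw [← hdim] at hev
  exact (Nat.even_add.1 hev).2 he

/-- The group element with sign `-1` commuting with `T`. -/
theorem exists_t2 (hodd : Odd (Fintype.card F)) (h2 : (2 : F) ≠ 0) (hQ : Nondeg Q) (hgen : genR Q = ⊤) (fr : Frame Q)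
    {r : ℕ} (hrp : r.Prime) (hro : Odd r) (hrF : (r : F) ≠ 0) (hiso : ∀ x, Q (T x) = Q x) (hr : T ^ r = 1) (hT1 : T ≠ 1)
    {m : ℕ} (hn : finrank F V = 2 * m) :
    ∃ w : OG Q, (∀ x, (w : V ≃ₗ[F] V) (T x) = T ((w : V ≃ₗ[F] V) x)) ∧ chi Q w = -1 ∧ detO Q w = 1 := by
  classical
  have hr0 : 0 < r := hrp.pos
  have hev : Even (finrank F V) := by
    rw [hn]
    exact even_two_mul m
  by_cases hZ0 : fixS T = ⊥
  · have hfree : ∀ x, T x = x → x = 0 := by
      intro x hx
      have : x ∈ fixS T := mem_fixS.2 hx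
      rwa [hZ0, Submodule.mem_bot] at this
    haveI : Nontrivial V := by
      by_contra hV
      rw [not_nontrivial_iff_subsingleton] at hV
      apply hT1
      ext x
      exact Subsingleton.elim _ _
    obtain ⟨W, hW, hW0, hnd, hA⟩ := exists_atom hodd h2 hQ hrp hro hrF hiso hr hfree
    obtain ⟨u, L, A, hF⟩ := hA.free
    have hc := isCompl_perp hnd
    have hP : ∀ x ∈ perp Q W, T x ∈ perp Q W := perp_inv hiso hr hr0 hW
    have hw1 : ∀ x, Q (dsum hc u LinearMap.id x) = 1 * Q x :=
      Q_dsum hc (fun a ha b hb => by rw [polar_comm]; exact hb a ha) u LinearMap.id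
        (fun x => by rw [one_mul]; exact hF.iso x) (fun x => by rw [one_mul]; rfl)
    have hw : ∀ x, Q (dsum hc u LinearMap.id x) = Q x := fun x => by rw [hw1, one_mul]
    have hcomm : ∀ x, dsum hc u LinearMap.id (T x) = T (dsum hc u LinearMap.id x) :=
      dsum_comm hc hW hP u LinearMap.id hF.comm (fun x => rfl)
    refine ⟨OG.ofLinear hQ (dsum hc u LinearMap.id) hw, hcomm, chi_dsum hodd h2 hQ hnd hF hw, ?_⟩
    apply Units.ext
    rw [detO_coe, Units.val_one]
    have h3 := det_sim_fpf h2 hQ hro hiso hr hfree one_ne_zero hw1 hcomm hn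
    rw [one_pow] at h3
    exact h3
  · have hnd := fixS_nondeg hQ hrF hiso hr
    have hZe := even_fixS hodd h2 hQ hrp hro hrF hiso hr hev
    have hZpos : 0 < finrank F (fixS T) := by
      haveI : Nontrivial (fixS T) := Submodule.nontrivial_iff_ne_bot.2 hZ0
      exact Module.finrank_pos
    have hZ2 : 2 ≤ finrank F (fixS T) := by
      obtain ⟨k, hk⟩ := hZe
      omega
    obtain ⟨x, y₀, hx, hy, hxy⟩ := exists_orth_pair (Q := Q.comp (fixS T).subtype) h2 (nondeg_comp hnd) hZ2
    have hx' : Q (x : V) ≠ 0 := hx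
    have hy' : Q (y₀ : V) ≠ 0 := hy
    have hxy' : polar Q (x : V) (y₀ : V) = 0 := hxy
    have hch : ringChar F ≠ 2 := by
      intro h
      exact (Nat.not_even_iff_odd.2 hodd) (Nat.even_iff.2 (FiniteField.even_card_iff_char_two.1 h))
    obtain ⟨ε, hε⟩ := FiniteField.exists_nonsquare hch
    have hε0 : ε ≠ 0 := by
      rintro rfl
      exact hε ⟨0, by simp⟩
    set c := Q (y₀ : V) / Q (x : V) with hc
    have hcne : c ≠ 0 := div_ne_zero hy' hx'
    have hb : Q (y₀ : V) = c * Q (x : V) := by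
      rw [hc]
      field_simp
    obtain ⟨s, t, hst⟩ := exists_sum_sq hodd hcne ε
    set v : V := s • (x : V) + t • (y₀ : V) with hv
    have hQv : Q v = Q (x : V) * ε := by
      rw [hv, Q_add, Q_smul, Q_smul, polar_smul_l, polar_smul_r, hxy', hb, ← hst]
      ring
    have hv0 : Q v ≠ 0 := by
      rw [hQv]
      exact mul_ne_zero hx' hε0
    have hvT : T v = v := by
      rw [hv, map_add, map_smul, map_smul, mem_fixS.1 x.2, mem_fixS.1 y₀.2]
    have hns : ¬ IsSquare (Q (x : V) * Q v) := by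
      rw [hQv]
      rintro ⟨d, hd⟩
      apply hε
      refine ⟨d / Q (x : V), ?_⟩
      field_simp
      linear_combination hd
    refine ⟨refl hQ hx' * refl hQ hv0, ?_, Cfsg.Agent.Lib.PgoSim.chi_refl_mul hodd hQ hgen fr hx' hv0 hns, ?_⟩
    · intro z
      rw [Subgroup.coe_mul, LinearEquiv.mul_apply, LinearEquiv.mul_apply, refl_apply, refl_apply, refl_apply, refl_apply,
        refl_comm hiso hvT, refl_comm hiso (mem_fixS.1 x.2)]
    · apply Units.ext
      rw [map_mul, Units.val_mul, detO_refl hQ hx' h2, detO_refl hQ hv0 h2, Units.val_one]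
      ring

/-- Determinants of similarities. -/
lemma det_sq_sim (hQ : Nondeg Q) {ε : F} {y : V →ₗ[F] V} (hy : ∀ x, Q (y x) = ε * Q x) :
    (LinearMap.det y) ^ 2 = ε ^ (finrank F V) := by
  classical
  let B' : LinearMap.BilinForm F V := polarBilin Q
  have hB' : ∀ a c, B' a c = polar Q a c := fun _ _ => rfl
  have hpy : ∀ a c, polar Q (y a) (y c) = ε * polar Q a c := by
    intro a c
    simp only [polar, ← map_add, hy]
    ring
  let b := Module.finBasis F V
  set G := LinearMap.BilinForm.toMatrix b B' with hG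
  have hGdet : G.det ≠ 0 := by
    intro h0
    obtain ⟨v, hv, hGv⟩ := Matrix.exists_mulVec_eq_zero_iff.2 h0
    set x := b.repr.symm (Finsupp.equivFunOnFinite.symm v) with hx
    have hrepr : ⇑(b.repr x) = v := by
      rw [hx, LinearEquiv.apply_symm_apply]
      rfl
    have hx0 : x ≠ 0 := by
      rintro h
      apply hv
      rw [← hrepr, h]
      simp
    have h1 : ∀ a, B' a x = 0 := by
      intro a
      rw [LinearMap.BilinForm.apply_eq_dotProduct_toMatrix_mulVec b, hrepr, ← hG, hGv, dotProduct_zero]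
    obtain ⟨z, hz⟩ := hQ x hx0
    apply hz
    have h3 := h1 z
    rw [hB', polar_comm] at h3
    exact h3
  set Y := LinearMap.toMatrix b b y with hY
  have hYG : Yᵀ * G * Y = ε • G := by
    have h1 : B'.comp y y = ε • B' := by
      ext a c
      change polar Q (y a) (y c) = ε * polar Q a c
      rw [hpy]
    have h3 := LinearMap.BilinForm.toMatrix_comp b b B' y y
    rw [h1, LinearEquiv.map_smul] at h3
    exact h3.symm
  have h1 := congrArg Matrix.det hYG
  rw [Matrix.det_mul, Matrix.det_mul, Matrix.det_transpose, Matrix.det_smul, Fintype.card_fin] at h1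
  have h6 : LinearMap.det y = Y.det := (LinearMap.det_toMatrix b y).symm
  rw [h6]
  apply mul_right_cancel₀ hGdet
  rw [← h1]
  ring

/-- Similarities with prescribed multiplier and normalised determinant. -/
theorem exists_t1 (hodd : Odd (Fintype.card F)) (h2 : (2 : F) ≠ 0) (hQ : Nondeg Q)
    {r : ℕ} (hrp : r.Prime) (hro : Odd r) (hrF : (r : F) ≠ 0) (hiso : ∀ x, Q (T x) = Q x) (hr : T ^ r = 1)
    {m : ℕ} (hn : finrank F V = 2 * m) {ε : F} (hε : ε ≠ 0) :
    ∃ y : V →ₗ[F] V, (∀ x, Q (y x) = ε * Q x) ∧ (∀ x, y (T x) = T (y x)) ∧ LinearMap.det y = ε ^ m := by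
  have hev : Even (finrank F V) := by
    rw [hn]
    exact even_two_mul m
  obtain ⟨y, hy, hyc⟩ := exists_sim_comm hodd h2 hQ hrp hro hrF hiso hr hev hε
  by_cases hZ0 : fixS T = ⊥
  · have hfree : ∀ x, T x = x → x = 0 := by
      intro x hx
      have : x ∈ fixS T := mem_fixS.2 hx
      rwa [hZ0, Submodule.mem_bot] at this
    exact ⟨y, hy, hyc, det_sim_fpf h2 hQ hro hiso hr hfree hε hy hyc hn⟩
  · have hnd := fixS_nondeg hQ hrF hiso hr
    haveI : Nontrivial (fixS T) := Submodule.nontrivial_iff_ne_bot.2 hZ0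
    obtain ⟨x, hx⟩ := exists_Q_ne (Q := Q.comp (fixS T).subtype) (nondeg_comp hnd)
    have hx' : Q (x : V) ≠ 0 := hx
    have hsq := det_sq_sim hQ hy
    rw [hn, pow_mul'] at hsq
    rcases sq_eq_sq_iff_eq_or_eq_neg.1 hsq with h3 | h3
    · exact ⟨y, hy, hyc, h3⟩
    · refine ⟨y ∘ₗ reflLin Q (x : V), ?_, ?_, ?_⟩
      · intro z
        rw [LinearMap.comp_apply, hy, reflLin_Q Q _ hx']
      · intro z
        rw [LinearMap.comp_apply, LinearMap.comp_apply, refl_comm hiso (mem_fixS.1 x.2), hyc]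
      · rw [LinearMap.det_comp, h3]
        have h4 := detO_refl hQ hx' h2
        rw [detO_coe] at h4
        have h5 : (((refl hQ hx' : OG Q) : V ≃ₗ[F] V) : V →ₗ[F] V) = reflLin Q (x : V) := by
          ext z
          rfl
        rw [h5] at h4
        rw [h4]
        ring

end Cfsg.Agent.Lib.PgoCent
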