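import Mathlib
import Cfsg.Agent.Lib.PgoInndiag
import Cfsg.Agent.Lib.PgoCent.Cent

/-!
# Classes of elements of odd prime order in `PGO`
-/

set_option autoImplicit false
set_option linter.unusedSectionVars false
set_option linter.style.haveILetI false

namespace Cfsg.Agent.Lib.PgoCent

open QuadraticMap Module Cfsg Matrix
open Cfsg.Agent.Lib.OrthoBasic Cfsg.Agent.Lib.OrthoSiegel Cfsg.Agent.Lib.OrthoGen Cfsg.Agent.Lib.OrthoChar
  Cfsg.Agent.Lib.PgoPsi Cfsg.Agent.Lib.PgoSim Cfsg.Agent.Lib.PgoSim.Data Cfsg.Agent.Lib.OrthoCount Cfsg.Agent.Lib.OrthoFinal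

lemma conj_of_factor {X : Type*} [Group X] {H K : Subgroup X} {x y : X}
    (hf : ∀ h ∈ K, ∃ a ∈ H, ∃ c, c * x = x * c ∧ h = a * c) (h : IsConjUnder K x y) : IsConjUnder H x y := by
  obtain ⟨h, hh, rfl⟩ := h
  obtain ⟨a, ha, c, hc, rfl⟩ := hf h hh
  refine ⟨a, ha, ?_⟩
  have h1 : a * c * x * (a * c)⁻¹ = a * (c * x) * c⁻¹ * a⁻¹ := by group
  rw [h1, hc]
  group

lemma conj_mono {X : Type*} [Group X] {H K : Subgroup X} {x y : X} (hHK : H ≤ K) (h : IsConjUnder H x y) :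
    IsConjUnder K x y := by
  obtain ⟨h, hh, rfl⟩ := h
  exact ⟨h, hHK hh, rfl⟩

variable {F : Type*} [Field F] [Fintype F] {ι : Type} [Fintype ι] [DecidableEq ι] {f : (ι → F) → F}
  {Q : QuadraticForm F (ι → F)} {n : ℕ}

lemma scalC_comm (D : Data f Q n) (l : Fˣ) (g : CO f) : D.scalC l * g = g * D.scalC l :=
  Subtype.ext (scalGL_comm l (g : GL ι F))

lemma scalC_mul (D : Data f Q n) (l k : Fˣ) : D.scalC (l * k) = D.scalC l * D.scalC k :=
  Subtype.ext (scalGL_mul l k)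

lemma scalC_pow (D : Data f Q n) (l : Fˣ) (i : ℕ) : D.scalC (l ^ i) = D.scalC l ^ i := by
  induction i with
  | zero => rw [pow_zero, pow_zero, D.scalC_one]
  | succ i ih => rw [pow_succ, pow_succ, scalC_mul, ih]

/-- A good representative of an element of odd prime order. -/
lemma exists_good_rep (D : Data f Q n) (x : MulAut (POmega F f)) (hx : x ∈ pgoAut F f) {r : ℕ} (hro : Odd r)
    (hxr : orderOf x = r) : ∃ g : CO f, psiO f g = x ∧ D.multC g = 1 ∧ g ^ r = 1 := by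
  rw [pgoAut_eq] at hx
  obtain ⟨g₀, -, rfl⟩ := hx
  have h1 : psiO f (g₀ ^ r) = 1 := by
    rw [map_pow, ← hxr]
    exact pow_orderOf_eq_one _
  obtain ⟨k, hk⟩ := (D.psiO_eq_one_iff _).1 h1
  obtain ⟨j, hj⟩ := hro
  set τ := D.multC g₀ with hτ
  have h2 : τ ^ r = k * k := by
    have := congrArg D.multC hk
    rwa [map_pow, multC_scalC] at this
  set μ : Fˣ := k * (τ ^ j)⁻¹ with hμ
  have h3 : τ = μ * μ := by
    have h4 : μ * μ = (k * k) * ((τ ^ j)⁻¹ * (τ ^ j)⁻¹) := by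
      rw [hμ]
      exact mul_mul_mul_comm _ _ _ _
    rw [h4, ← h2, hj, pow_succ, pow_mul, pow_two]
    have h5 : (τ ^ j * τ ^ j) = (τ * τ) ^ j := by
      rw [← pow_two, ← pow_mul, ← pow_two, ← pow_mul, mul_comm]
    rw [← h5]
    group
  set g₁ := g₀ * D.scalC μ⁻¹ with hg₁
  have hm₁ : D.multC g₁ = 1 := by
    rw [hg₁, map_mul, multC_scalC, ← hτ]
    nth_rewrite 1 [h3]
    group
  have hg₁r : g₁ ^ r = D.scalC (k * μ⁻¹ ^ r) := by
    have hc : Commute g₀ (D.scalC μ⁻¹) := (scalC_comm D _ _).symm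
    rw [hg₁, hc.mul_pow, hk, scalC_mul, scalC_pow]
  set l := k * μ⁻¹ ^ r with hl
  have hll : l * l = 1 := by
    have := congrArg D.multC hg₁r
    rw [map_pow, hm₁, one_pow, multC_scalC] at this
    exact this.symm
  have hlr : l ^ r = l := by
    rw [hj, pow_succ, pow_mul, pow_two, hll, one_pow, one_mul]
  refine ⟨g₁ * D.scalC l, ?_, ?_, ?_⟩
  · rw [map_mul, D.psiO_scalC, mul_one, hg₁, map_mul, D.psiO_scalC, mul_one]
  · rw [map_mul, hm₁, one_mul, multC_scalC, hll]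
  · have hc : Commute g₁ (D.scalC l) := (scalC_comm D _ _).symm
    rw [hc.mul_pow, hg₁r, ← scalC_pow, hlr, ← scalC_mul, hll, D.scalC_one]

/-- The main theorem in terms of the data. -/
theorem main_data (D : Data f Q n) (x : MulAut (POmega F f)) (hx : x ∈ pgoAut F f) {r : ℕ} (hrp : r.Prime) (hro : Odd r)
    (hrF : (r : F) ≠ 0) (hxr : orderOf x = r) :
    (∀ h ∈ D.delta.ker.map (psiO f), ∃ a ∈ Inn (POmega F f), ∃ c, c * x = x * c ∧ h = a * c) ∧
      (∀ h ∈ pgoAut F f, ∃ a ∈ poAut F f, ∃ c, c * x = x * c ∧ h = a * c) := by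
  obtain ⟨g, rfl, hg1, hgr⟩ := exists_good_rep D x hx hro hxr
  have h2 : (2 : F) ≠ 0 := char_ne_two_of_odd D.hodd
  set M : Matrix ι ι F := ((g : GL ι F) : Matrix ι ι F) with hM
  set T : Module.End F (ι → F) := Matrix.toLinAlgEquiv' M with hT
  have hTa : ∀ v, T v = M *ᵥ v := fun v => Matrix.toLinAlgEquiv'_apply M v
  have hiso : ∀ v, Q (T v) = Q v := by
    intro v
    rw [hTa, ← D.hf, ← D.hf, hM, D.multC_spec, hg1]
    simp
  have hr : T ^ r = 1 := by
    have h1 : ((g ^ r : CO f) : GL ι F) = 1 := by rw [hgr]; rfl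
    have h3 : M ^ r = 1 := by
      have := congrArg (fun a : GL ι F => (a : Matrix ι ι F)) h1
      simpa using this
    rw [hT, ← map_pow, h3, map_one]
  have hT1 : T ≠ 1 := by
    intro h
    have h3 : M = 1 := by
      have : Matrix.toLinAlgEquiv' M = Matrix.toLinAlgEquiv' (1 : Matrix ι ι F) := by
        rw [map_one]
        exact h
      exact Matrix.toLinAlgEquiv'.injective this
    have h4 : g = 1 := Subtype.ext (Units.ext h3)
    rw [h4, map_one, orderOf_one] at hxr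
    exact hrp.one_lt.ne hxr
  have hcomm_iff : ∀ a : CO f, (∀ v, ((a : GL ι F) : Matrix ι ι F) *ᵥ (T v) = T (((a : GL ι F) : Matrix ι ι F) *ᵥ v)) →
      psiO f a * psiO f g = psiO f g * psiO f a := by
    intro a ha
    rw [← map_mul, ← map_mul]
    congr 1
    apply Subtype.ext
    apply Units.ext
    apply Matrix.mulVec_injective
    funext v
    change (((a : GL ι F) : Matrix ι ι F) * M) *ᵥ v = (M * ((a : GL ι F) : Matrix ι ι F)) *ᵥ v
    rw [← Matrix.mulVec_mulVec, ← Matrix.mulVec_mulVec, ← hTa, ha, hTa]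
  have hn : finrank F (ι → F) = 2 * n := by
    rw [Module.finrank_fintype_fun_eq_card, D.hcard]
  obtain ⟨y, hy, hyc, hyd⟩ := exists_t1 D.hodd h2 D.hQ hrp hro hrF hiso hr hn (ε := (D.ν : F)) D.ν.ne_zero
  obtain ⟨w, hwc, hwchi, hwdet⟩ := exists_t2 D.hodd h2 D.hQ D.hgen D.fr hrp hro hrF hiso hr hT1 hn
  -- the similarity in the group
  have hydet : (LinearMap.toMatrix' y).det ≠ 0 := by
    rw [LinearMap.det_toMatrix', hyd]
    exact pow_ne_zero _ D.ν.ne_zero
  let yG : GL ι F := Matrix.GeneralLinearGroup.mkOfDetNeZero (LinearMap.toMatrix' y) hydet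
  have hyG : ∀ v, (yG : Matrix ι ι F) *ᵥ v = y v := fun v => LinearMap.toMatrix'_mulVec y v
  let yC : CO f := ⟨yG, D.ν, fun v => by
    rw [hyG, D.hf, D.hf]
    exact hy v⟩
  have hyC : ∀ v, ((yC : GL ι F) : Matrix ι ι F) *ᵥ v = y v := hyG
  have hmy : D.multC yC = D.ν := D.multC_eq (fun v => by
    rw [hyC, D.hf, D.hf]
    exact hy v)
  have hcy : psiO f yC * psiO f g = psiO f g * psiO f yC := by
    apply hcomm_iff
    intro v
    rw [hyC, hyC, hyc]
  have hdy : D.delta yC = 1 := by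
    have h3 : D.detC yC = D.ν ^ n := by
      apply Units.ext
      rw [Units.val_pow_eq_pow_val, ← hyd, ← LinearMap.det_toMatrix']
      rfl
    rw [delta_apply, h3, hmy, mul_inv_cancel]
  -- the isometry in the group
  set wA : isometryGroup F f := D.toOG.symm w with hwA
  have htoOG : D.toOG wA = w := by
    rw [hwA, MulEquiv.apply_symm_apply]
  have hwa : ∀ v, ((wA : GL ι F) : Matrix ι ι F) *ᵥ v = (w : (ι → F) ≃ₗ[F] (ι → F)) v := by
    intro v
    rw [← htoOG]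
    rfl
  have hcw : psiO f (isoC wA) * psiO f g = psiO f g * psiO f (isoC wA) := by
    apply hcomm_iff
    intro v
    change ((wA : GL ι F) : Matrix ι ι F) *ᵥ (T v) = T (((wA : GL ι F) : Matrix ι ι F) *ᵥ v)
    rw [hwa, hwa, hwc]
  have hdw : Matrix.GeneralLinearGroup.det (wA : GL ι F) = 1 := by
    rw [← D.detO_toOG, htoOG, hwdet]
  have hcw' : chi Q (D.toOG wA) = -1 := by rw [htoOG, hwchi]
  -- elements with square multiplier
  have hsq : ∀ h₀ : CO f, IsSquare (D.multC h₀) → D.delta h₀ = 1 →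
      ∃ s ∈ omegaC f, ∃ c, c * psiO f g = psiO f g * c ∧ psiO f h₀ = psiO f s * c := by
    intro h₀ hs hd
    obtain ⟨l, a, rfl⟩ := D.decomp h₀ hs
    rw [map_mul, delta_scalC, one_mul, delta_isoC] at hd
    rcases Int.units_eq_one_or (chi Q (D.toOG a)) with h3 | h3
    · refine ⟨isoC a, isoC_mem_omegaC (D.omega_of_chi hd h3), 1, by group, ?_⟩
      rw [map_mul, D.psiO_scalC, one_mul, mul_one]
    · have hm : a * wA⁻¹ ∈ Omega F f := by
        apply D.omega_of_chi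
        · rw [Subgroup.coe_mul, map_mul, hd, Subgroup.coe_inv, map_inv, hdw]
          simp
        · rw [map_mul, map_mul, map_inv, map_inv, h3, hcw']
          decide
      refine ⟨isoC (a * wA⁻¹), isoC_mem_omegaC hm, psiO f (isoC wA), hcw, ?_⟩
      rw [map_mul, D.psiO_scalC, one_mul, ← map_mul]
      congr 1
      apply Subtype.ext
      change (a : GL ι F) = ((a * wA⁻¹ : isometryGroup F f) : GL ι F) * (wA : GL ι F)
      rw [Subgroup.coe_mul, Subgroup.coe_inv]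
      group
  have hνsq : ∀ h₀ : CO f, ¬ IsSquare (D.multC h₀) → IsSquare (D.multC (h₀ * yC⁻¹)) := by
    intro h₀ hs
    rw [map_mul, map_inv, hmy]
    apply isSquare_mul_of_not _ _ hs
    intro h
    apply D.hν
    rw [← inv_inv D.ν]
    exact h.inv
  refine ⟨?_, ?_⟩
  · rintro _ ⟨h₀, hh₀, rfl⟩
    have hh₀' : D.delta h₀ = 1 := hh₀
    by_cases hs : IsSquare (D.multC h₀)
    · obtain ⟨s, hs', c, hc, h3⟩ := hsq h₀ hs hh₀'
      refine ⟨psiO f s, ?_, c, hc, h3⟩
      rw [Inn_eq]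
      exact ⟨s, hs', rfl⟩
    · obtain ⟨s, hs', c, hc, h3⟩ := hsq (h₀ * yC⁻¹) (hνsq h₀ hs) (by
        rw [map_mul, map_inv, hh₀', hdy]
        simp)
      refine ⟨psiO f s, ?_, c * psiO f yC, ?_, ?_⟩
      · rw [Inn_eq]
        exact ⟨s, hs', rfl⟩
      · rw [mul_assoc, hcy, ← mul_assoc, hc, mul_assoc]
      · rw [← mul_assoc, ← h3, ← map_mul]
        group
  · intro h hh
    rw [pgoAut_eq] at hh
    obtain ⟨h₀, -, rfl⟩ := hh
    by_cases hs : IsSquare (D.multC h₀)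
    · obtain ⟨l, a, rfl⟩ := D.decomp h₀ hs
      refine ⟨psiO f (isoC a), ?_, 1, by group, ?_⟩
      · rw [poAut_eq]
        exact ⟨isoC a, a.2, rfl⟩
      · rw [map_mul, D.psiO_scalC, one_mul, mul_one]
    · obtain ⟨l, a, h3⟩ := D.decomp _ (hνsq h₀ hs)
      refine ⟨psiO f (isoC a), ?_, psiO f yC, hcy, ?_⟩
      · rw [poAut_eq]
        exact ⟨isoC a, a.2, rfl⟩
      · have h4 : h₀ = D.scalC l * isoC a * yC := by
          rw [← h3]
          group
        rw [h4, map_mul, map_mul, D.psiO_scalC, one_mul]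

/-- The comparison of classes. -/
theorem classes (D : Data f Q n) (x : MulAut (POmega F f)) (hx : x ∈ pgoAut F f) {r : ℕ} (hrp : r.Prime) (hro : Odd r)
    (hrF : (r : F) ≠ 0) (hxr : orderOf x = r) (y : MulAut (POmega F f)) :
    (IsConjUnder (Inn (POmega F f)) x y ↔ IsConjUnder (D.delta.ker.map (psiO f)) x y) ∧
      (IsConjUnder (psoAut F f) x y ↔ IsConjUnder (D.delta.ker.map (psiO f)) x y) ∧
      (IsConjUnder (poAut F f) x y ↔ IsConjUnder (pgoAut F f) x y) := by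
  obtain ⟨h1, h3⟩ := main_data D x hx hrp hro hrF hxr
  have hpso : psoAut F f ≤ D.delta.ker.map (psiO f) := by
    rw [psoAut_eq]
    rintro _ ⟨z, hz, rfl⟩
    exact ⟨z, D.delta_of_mem z hz, rfl⟩
  have hpo : poAut F f ≤ pgoAut F f := by
    rw [poAut_eq, pgoAut_eq]
    exact Subgroup.map_mono le_top
  refine ⟨⟨conj_mono (Cfsg.Agent.Lib.PgoInndiag.Data.Inn_le D), conj_of_factor h1⟩, ⟨conj_mono hpso, ?_⟩,
    ⟨conj_mono hpo, conj_of_factor h3⟩⟩
  intro h
  exact conj_mono D.Inn_le_pso (conj_of_factor h1 h)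

end Cfsg.Agent.Lib.PgoCent
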